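import Cfsg.Agent.Lib.ClassicalForms.Ortho.POmega
import Cfsg.Agent.Lib.Parabolic.OrthBasic
import Cfsg.Agent.Lib.Forms.WittQuadratic

/-!
Elements of order three in the orthogonal group of `x₀² + x₁y₁ + x₂y₂ + x₃y₃` over the field with three elements:
the identities satisfied by `x - 1`, and conjugation by isometries extending a map of frames.
-/

set_option autoImplicit false

namespace CfsgLib.O73

open CfsgLib.OrthGen Matrix QuadraticMap

/-- The field with three elements. -/
abbrev F3 := ZMod 3

/-- The index type of the seven coordinates. -/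
abbrev I7 := Unit ⊕ (Fin 3 ⊕ Fin 3)

/-- The seven dimensional space. -/
abbrev V7 := I7 → F3

/-- The quadratic form. -/
def Q7 : QuadraticForm F3 V7 := CfsgLib.ClassicalForms.qOdd 3 F3

/-- The isometry group. -/
abbrev G7 := Cfsg.isometryGroup F3 (⇑Q7)

/-- The polar form. -/
noncomputable def Bf : LinearMap.BilinForm F3 V7 := QuadraticMap.polarBilin Q7

lemma Bf_polar (u v : V7) : Bf u v = QuadraticMap.polar (⇑Q7) u v := rfl

lemma three_eq_zero : (3 : F3) = 0 := by decide

lemma two_ne_zero7 : (2 : F3) ≠ 0 := by decide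

lemma nondeg_Q7 : (QuadraticMap.polarBilin Q7).Nondegenerate := by
  have h := CfsgLib.ClassicalForms.nondeg_qOdd (F := F3) two_ne_zero7 3
  have hl : (QuadraticMap.polarBilin Q7).SeparatingLeft := fun x hx => h x hx
  exact ⟨hl, fun y hy => h y fun x => by
    have := hy x
    rw [QuadraticMap.polarBilin_apply_apply] at this
    rw [QuadraticMap.polar_comm]
    exact this⟩

lemma Bf_comm (u v : V7) : Bf u v = Bf v u := by
  simp only [Bf_polar, QuadraticMap.polar_comm _ u v]

lemma Bf_self (u : V7) : Bf u u = 2 * Q7 u := by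
  rw [Bf_polar]
  exact pf_self Q7 u

lemma Q7_eq (u : V7) : Q7 u = -Bf u u := by
  rw [Bf_self]
  linear_combination (Q7 u) * three_eq_zero

lemma eq_zero_of_Bf {u : V7} (h : ∀ v, Bf u v = 0) : u = 0 := nondeg_Q7.1 u h

/-- An isometry as a linear map. -/
noncomputable def lin (x : G7) : V7 →ₗ[F3] V7 :=
  Matrix.mulVecLin ((x : Matrix.GeneralLinearGroup I7 F3) : Matrix I7 I7 F3)

lemma lin_apply (x : G7) (u : V7) : lin x u = act Q7 x u := rfl

lemma lin_mul (x y : G7) (u : V7) : lin (x * y) u = lin x (lin y u) := act_mul x y u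

lemma lin_one (u : V7) : lin 1 u = u := act_one u

lemma lin_ext {x y : G7} (h : ∀ u, lin x u = lin y u) : x = y := ext_act h

lemma Bf_lin (x : G7) (u v : V7) : Bf (lin x u) (lin x v) = Bf u v := by
  simp only [Bf_polar]
  exact pf_act x u v

/-- `x - 1`. -/
noncomputable def nop (x : G7) : V7 →ₗ[F3] V7 := lin x - LinearMap.id

lemma lin_eq (x : G7) (u : V7) : lin x u = u + nop x u := by simp [nop]

lemma nop_eq_zero_iff (x : G7) : (∀ u, nop x u = 0) ↔ x = 1 := by
  constructor
  · intro h
    exact lin_ext fun u => by rw [lin_eq, h, add_zero, lin_one]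
  · rintro rfl u
    simp [nop, lin_one]

lemma nop_cube {x : G7} (hx : x ^ 3 = 1) (u : V7) : nop x (nop x (nop x u)) = 0 := by
  have h3 : lin x (lin x (lin x u)) = u := by
    rw [← lin_mul, ← lin_mul, show x * x * x = 1 from (by rw [← hx, pow_three']), lin_one]
  simp only [nop, LinearMap.sub_apply, LinearMap.id_apply, map_sub, h3]
  have h : ∀ a : V7, a + a + a = 0 := fun a => funext fun i => by
    simp only [Pi.add_apply, Pi.zero_apply]
    linear_combination (a i) * three_eq_zero
  calc u - lin x (lin x u) - (lin x (lin x u) - lin x u) -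
        (lin x (lin x u) - lin x u - (lin x u - u))
      = (lin x u + lin x u + lin x u) - (lin x (lin x u) + lin x (lin x u) + lin x (lin x u)) := by
        abel
    _ = 0 := by rw [h, h, sub_zero]

/-- The orthogonality relation for `x - 1`. -/
lemma nop_rel (x : G7) (u v : V7) :
    Bf (nop x u) v + Bf u (nop x v) + Bf (nop x u) (nop x v) = 0 := by
  have h := Bf_lin x u v
  simp only [lin_eq, map_add, LinearMap.add_apply] at h
  linear_combination h

variable {x : G7}

lemma B22 (hx : x ^ 3 = 1) (u v : V7) : Bf (nop x (nop x u)) (nop x (nop x v)) = 0 := by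
  have h := nop_rel x (nop x (nop x u)) (nop x v)
  rw [nop_cube hx, map_zero, LinearMap.zero_apply, LinearMap.zero_apply, add_zero, zero_add] at h
  exact h

lemma B21 (hx : x ^ 3 = 1) (u v : V7) : Bf (nop x (nop x u)) (nop x v) = 0 := by
  have h := nop_rel x (nop x (nop x u)) v
  rw [nop_cube hx, map_zero, LinearMap.zero_apply, LinearMap.zero_apply, add_zero, zero_add] at h
  exact h

lemma B12 (hx : x ^ 3 = 1) (u v : V7) : Bf (nop x u) (nop x (nop x v)) = 0 := by
  rw [Bf_comm, B21 hx]

lemma B20 (hx : x ^ 3 = 1) (u v : V7) :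
    Bf (nop x (nop x u)) v = -Bf (nop x u) (nop x v) := by
  have h := nop_rel x (nop x u) v
  rw [B21 hx] at h
  linear_combination h

lemma B02 (hx : x ^ 3 = 1) (u v : V7) :
    Bf u (nop x (nop x v)) = Bf (nop x (nop x u)) v := by
  rw [B20 hx, Bf_comm u, B20 hx, Bf_comm]

/-- The form `B(N²u, u)`. -/
noncomputable def qN (x : G7) (u : V7) : F3 := Bf (nop x (nop x u)) u

lemma qN_add (hx : x ^ 3 = 1) (u v : V7) :
    qN x (u + v) = qN x u + qN x v + 2 * Bf (nop x (nop x u)) v := by
  simp only [qN, map_add, LinearMap.add_apply]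
  rw [show Bf (nop x (nop x v)) u = Bf (nop x (nop x u)) v by rw [Bf_comm, B02 hx]]
  ring

lemma exists_qN_ne_zero (hx : x ^ 3 = 1) {u : V7} (hu : nop x (nop x u) ≠ 0) :
    ∃ v, qN x v ≠ 0 := by
  by_contra hc
  simp only [not_exists, not_not] at hc
  refine hu (eq_zero_of_Bf fun v => ?_)
  have h := qN_add hx u v
  rw [hc, hc, hc] at h
  linear_combination h + Bf (nop x (nop x u)) v * three_eq_zero

/-! ### Frames -/

/-- Linear independence from an invertible Gram matrix. -/
lemma linearIndependent_of_gram {κ : Type*} [Fintype κ] (p : κ → V7)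
    (h : ∀ c : κ → F3, (∀ k, ∑ i, c i * Bf (p i) (p k) = 0) → c = 0) :
    LinearIndependent F3 p := by
  rw [Fintype.linearIndependent_iff]
  intro c hc i
  refine congrFun (h c fun k => ?_) i
  have h' := congrArg (fun w => Bf w (p k)) hc
  simpa [map_sum, LinearMap.sum_apply] using h'

lemma card_le_seven {κ : Type*} [Fintype κ] {p : κ → V7} (h : LinearIndependent F3 p) :
    Fintype.card κ ≤ 7 := by
  simpa using h.fintype_card_le_finrank

/-- An isometry carrying one frame onto another with the same Gram matrix. -/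
theorem exists_isometry_of_gram {κ : Type*} [Fintype κ] {p p' : κ → V7}
    (hp : LinearIndependent F3 p) (hp' : LinearIndependent F3 p')
    (hG : ∀ i j, Bf (p' i) (p' j) = Bf (p i) (p j)) :
    ∃ g : G7, ∀ i, lin g (p i) = p' i := by
  classical
  set b := Module.Basis.span hp with hbdef
  set f : Submodule.span F3 (Set.range p) →ₗ[F3] V7 := b.constr F3 p' with hfdef
  have hfb : ∀ i, f (b i) = p' i := fun i => by rw [hfdef, Module.Basis.constr_basis]
  have hbp : ∀ i, ((b i : Submodule.span F3 (Set.range p)) : V7) = p i :=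
    fun i => congrArg Subtype.val (Module.Basis.span_apply hp i)
  have hinj : Function.Injective f := by
    rw [← LinearMap.ker_eq_bot, LinearMap.ker_eq_bot']
    intro w hw
    rw [← b.sum_repr w, map_sum] at hw
    simp only [map_smul, hfb] at hw
    have := Fintype.linearIndependent_iff.mp hp' _ hw
    rw [← b.sum_repr w]
    simp [this]
  have hB : Bf.compl₁₂ f f = Bf.compl₁₂ (Submodule.subtype _) (Submodule.subtype _) :=
    b.ext fun i => b.ext fun j => by
      simp only [LinearMap.compl₁₂_apply, hfb, Submodule.subtype_apply, hbp, hG]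
  obtain ⟨g, hg, hgf⟩ := CfsgLib.Forms.witt_extension_quadratic Q7 nondeg_Q7 _ f hinj fun w => by
    have := LinearMap.congr_fun₂ hB w w
    simp only [LinearMap.compl₁₂_apply, Submodule.subtype_apply] at this
    rw [Q7_eq, Q7_eq, this]
  refine ⟨mkIso Q7 (LinearMap.toMatrix' g.toLinearMap) (LinearMap.toMatrix' g.symm.toLinearMap)
    ?_ ?_ ?_, fun i => ?_⟩
  · rw [← LinearMap.toMatrix'_comp]; simp
  · rw [← LinearMap.toMatrix'_comp]; simp
  · intro v; rw [LinearMap.toMatrix'_mulVec]; exact hg v
  · rw [lin_apply, act, coe_mkIso, LinearMap.toMatrix'_mulVec]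
    show g (p i) = p' i
    rw [← hbp i, ← hfb i]
    exact hgf (b i)

attribute [irreducible] Bf

end CfsgLib.O73
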