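import Cfsg.Agent.Lib.Classes.OmegaSevenThree.Signs

/-!
An isometry of determinant one centralising the standard element of shape `3 2²` has spinor sign one.
-/

set_option autoImplicit false
set_option linter.unusedSimpArgs false
set_option linter.unusedVariables false

namespace CfsgLib.O73

open CfsgLib.OrthGen

/-- First coordinate index of the pairs. -/
abbrev iA (i : Fin 3) : I7 := .inr (.inl i)
/-- Second coordinate index of the pairs. -/
abbrev iB (i : Fin 3) : I7 := .inr (.inr i)
/-- The coordinate index of the odd vector. -/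
abbrev iX : I7 := .inl ()

/-- The operator `z - 1` for the standard element of shape `3 2²`. -/
def nC (u : V7) : V7 := vec (u (iA 0)) 0 0 0 (u iX - u (iA 0)) (-u (iA 2)) (u (iA 1))

lemma stdC_three (u : V7) : stdC 3 u = nC u := by
  ext (i | i | i) <;> fin_cases i <;>
    simp [stdC, c3, c4, bfc, nC, vec, sv, sw, sz, sf, sh, sg, sk, iA, iX] <;>
    ring_nf <;> linear_combination (-u iX) * three_eq_zero

lemma commute_nC {g : G7} (h : g * zStd 3 = zStd 3 * g) (u : V7) :
    lin g (nC u) = nC (lin g u) := by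
  have h' := congrArg (fun x => lin x u) h
  simp only [lin_mul, lin_zStd, linC, map_add, stdC_three] at h'
  exact add_left_cancel h'

/-- Transvection `a₃ ↦ a₃ + c a₂`. -/
noncomputable def elT (c : F3) : G7 :=
  siegel Q7 (u := sh) (v := sf) (by rw [Q7_eq, ← bfc_eq]; decide) (by rw [Q7_eq, ← bfc_eq]; decide)
    (by rw [pf, ← Bf_polar, ← bfc_eq]; decide) c

/-- Transvection `a₂ ↦ a₂ + c a₃`. -/
noncomputable def elS (c : F3) : G7 :=
  siegel Q7 (u := vec 0 0 0 0 0 1 0) (v := sg) (by rw [Q7_eq, ← bfc_eq]; decide)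
    (by rw [Q7_eq, ← bfc_eq]; decide) (by rw [pf, ← Bf_polar, ← bfc_eq]; decide) c

/-- A Siegel transformation in coordinates. -/
def siegC (u v : V7) (c : F3) (x : V7) : V7 := x + c • (bfc u x • v - bfc v x • u)

lemma lin_elT (c : F3) (x : V7) : lin (elT c) x = siegC sh sf c x := by
  rw [lin_apply, elT, act_siegel, siegC, bfc_eq, bfc_eq, Bf_polar, Bf_polar]

lemma lin_elS (c : F3) (x : V7) : lin (elS c) x = siegC (vec 0 0 0 0 0 1 0) sg c x := by
  rw [lin_apply, elS, act_siegel, siegC, bfc_eq, bfc_eq, Bf_polar, Bf_polar]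

lemma elT_commutes (c : F3) : elT c * zStd 3 = zStd 3 * elT c :=
  lin_eq_of_basis fun j => by
    simp only [lin_mul, lin_zStd, lin_elT]
    revert j c
    decide +kernel

lemma elS_commutes (c : F3) : elS c * zStd 3 = zStd 3 * elS c :=
  lin_eq_of_basis fun j => by
    simp only [lin_mul, lin_zStd, lin_elS]
    revert j c
    decide +kernel

lemma spin_eq_one_of_odd {g : G7} {k : ℕ} (hk : Odd k) (h : g ^ k = 1) :
    spinSign Q7 1 g = 1 := by
  have := congrArg (spinSign Q7 1) h
  rw [map_pow, map_one] at this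
  rcases Int.units_eq_one_or (spinSign Q7 1 g) with e | e
  · exact e
  · rw [e, hk.neg_one_pow] at this
    exact absurd this (by decide)

lemma det_eq_one_of_odd {g : G7} {k : ℕ} (hk : Odd k) (h : g ^ k = 1) :
    CfsgLib.Classes.detHom Q7 g = 1 := by
  have := congrArg (CfsgLib.Classes.detHom Q7) h
  rw [map_pow, map_one] at this
  generalize CfsgLib.Classes.detHom Q7 g = d at this
  rcases eq_or_ne d 0 with rfl | hd
  · rw [zero_pow (by rintro rfl; simp at hk)] at this
    exact absurd this (by decide)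
  · rcases unit_cases hd with e | e
    · exact e
    · rw [e, hk.neg_one_pow] at this
      exact absurd this (by decide)

lemma siegel_cube {u v : V7} (hu : Q7 u = 0) (hv : Q7 v = 0) (huv : pf Q7 u v = 0) (c : F3) :
    siegel Q7 hu hv huv c ^ 3 = 1 := by
  refine lin_ext fun x => ?_
  have e : c + c + c = 0 := by linear_combination c * three_eq_zero
  have key : ∀ (p q : F3) (y : V7),
      lin (siegel Q7 hu hv huv p) (lin (siegel Q7 hu hv huv q) y) =
        lin (siegel Q7 hu hv huv (p + q)) y := by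
    intro p q y
    simp only [lin_apply, act, siegel, coe_mkIso, Matrix.mulVec_mulVec, siegel_mul Q7 hu hv huv]
  rw [pow_three, lin_mul, lin_mul, key, key, e, lin_one]
  simp only [lin_apply, act, siegel, coe_mkIso, siegel_zero, Matrix.one_mulVec]

lemma elT_sign (c : F3) :
    CfsgLib.Classes.detHom Q7 (elT c) = 1 ∧ spinSign Q7 1 (elT c) = 1 :=
  ⟨det_eq_one_of_odd (by decide : Odd 3) (siegel_cube _ _ _ c),
    spin_eq_one_of_odd (by decide : Odd 3) (siegel_cube _ _ _ c)⟩

lemma elS_sign (c : F3) :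
    CfsgLib.Classes.detHom Q7 (elS c) = 1 ∧ spinSign Q7 1 (elS c) = 1 :=
  ⟨det_eq_one_of_odd (by decide : Odd 3) (siegel_cube _ _ _ c),
    spin_eq_one_of_odd (by decide : Odd 3) (siegel_cube _ _ _ c)⟩

/-- The weights of the coordinates. -/
def wt : I7 → ℕ := Sum.elim (fun _ => 2) (Sum.elim ![4, 3, 3] ![0, 1, 1])

lemma matrix_pow_zero {D : Matrix I7 I7 F3} (h : ∀ j i, wt i ≤ wt j → D j i = 0) :
    ∀ (k : ℕ) (j i : I7), wt i < wt j + k → (D ^ k) j i = 0 := by
  intro k
  induction k with
  | zero =>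
    intro j i hji
    rw [pow_zero, Matrix.one_apply_ne]
    rintro rfl
    omega
  | succ k ih =>
    intro j i hji
    rw [pow_succ, Matrix.mul_apply]
    refine Finset.sum_eq_zero fun l _ => ?_
    by_cases hl : wt l < wt j + k
    · rw [ih j l hl, zero_mul]
    · rw [h l i (by omega), mul_zero]

/-- An element centralising `z`, fixing the three pivots, has order dividing nine. -/
lemma pow_nine {g : G7} (h : g * zStd 3 = zStd 3 * g) (hε : lin g sv (iA 0) = 1)
    (h2 : lin g sf (iA 1) = 1) (h3 : lin g sf (iA 2) = 0)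
    (h4 : lin g sg (iA 1) = 0) (h5 : lin g sg (iA 2) = 1) : g ^ 9 = 1 := by
  set M := ((g : Matrix.GeneralLinearGroup I7 F3) : Matrix I7 I7 F3) with hM
  have hcol : ∀ j i, M j i = lin g (Pi.single i 1) j := fun j i => by
    rw [lin_apply, act, ← hM, Matrix.mulVec_single]
    simp
  have q1 : lin g sf (iA 0) = 0 := by
    have e := commute_nC h (nC sf)
    rw [commute_nC h sf, show nC (nC sf) = 0 by decide, map_zero] at e
    simpa [nC, vec, iA, iB] using (congrFun e (iB 0)).symm
  have r1 : lin g sg (iA 0) = 0 := by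
    have e := commute_nC h (nC sg)
    rw [commute_nC h sg, show nC (nC sg) = 0 by decide, map_zero] at e
    simpa [nC, vec, iA, iB] using (congrFun e (iB 0)).symm
  have eA0 : (Pi.single (iA 0) (1 : F3) : V7) = sv := by decide
  have eA1 : (Pi.single (iA 1) (1 : F3) : V7) = sf := by decide
  have eA2 : (Pi.single (iA 2) (1 : F3) : V7) = sg := by decide
  have eX : (Pi.single iX (1 : F3) : V7) = nC sv + nC (nC sv) := by decide
  have eB0 : (Pi.single (iB 0) (1 : F3) : V7) = nC (nC sv) := by decide
  have eB1 : (Pi.single (iB 1) (1 : F3) : V7) = -nC sg := by decide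
  have eB2 : (Pi.single (iB 2) (1 : F3) : V7) = nC sf := by decide
  have hD : ∀ j i, wt i ≤ wt j → (M - 1) j i = 0 := by
    intro j i hw
    rw [Matrix.sub_apply, hcol]
    rcases i with i | i | i <;> fin_cases i <;>
      (try simp only [Fin.zero_eta, Fin.mk_one, Fin.reduceFinMk] at hw ⊢) <;>
      rcases j with j | j | j <;> fin_cases j <;>
      (try simp only [Fin.zero_eta, Fin.mk_one, Fin.reduceFinMk] at hw ⊢) <;>
      simp [wt] at hw <;>
      first
      | (rw [eA0]; simp [hε])
      | (rw [eA1]; simp [q1, h2, h3])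
      | (rw [eA2]; simp [r1, h4, h5])
      | (rw [eX, map_add, commute_nC h, commute_nC h, commute_nC h]; simp [nC, vec, hε, iA, iX])
      | (rw [eB0, commute_nC h, commute_nC h]; simp [nC, vec, hε, iA, iX])
      | (rw [eB1, map_neg, commute_nC h]; simp [nC, vec, r1, h4, h5, iA, iX])
      | (rw [eB2, commute_nC h]; simp [nC, vec, q1, h2, h3, iA, iX])
  have h9 : (M - 1) ^ 9 = 0 := by
    ext j i
    exact matrix_pow_zero hD 9 j i (by
      have : ∀ i : I7, wt i < 9 := by decide
      exact lt_of_lt_of_le (this i) (Nat.le_add_left _ _))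
  have hM9 : M ^ 9 = 1 := by
    haveI : CharP (Matrix I7 I7 F3) 3 := inferInstance
    have := add_pow_char_pow_of_commute (p := 3) (n := 2) (Commute.one_right (M - 1))
    norm_num at this
    rwa [h9, zero_add] at this
  exact Subtype.ext (Units.ext (by simpa [hM] using hM9))

/-- The two by two reduction. -/
lemma reduce_two : ∀ q r : F3 × F3, q.1 * r.2 - q.2 * r.1 = 1 → ∃ a b c d : F3,
    (fun p : F3 × F3 => let p1 := (p.1, p.2 + a * p.1); let p2 := (p1.1 + b * p1.2, p1.2)
      let p3 := (p2.1, p2.2 + c * p2.1); (p3.1 + d * p3.2, p3.2)) q = (1, 0) ∧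
    (fun p : F3 × F3 => let p1 := (p.1, p.2 + a * p.1); let p2 := (p1.1 + b * p1.2, p1.2)
      let p3 := (p2.1, p2.2 + c * p2.1); (p3.1 + d * p3.2, p3.2)) r = (0, 1) := by
  decide +kernel

lemma coords_elT (c : F3) (x : V7) : siegC sh sf c x (iA 0) = x (iA 0) ∧
    siegC sh sf c x (iA 1) = x (iA 1) + c * x (iA 2) ∧ siegC sh sf c x (iA 2) = x (iA 2) := by
  refine ⟨?_, ?_, ?_⟩ <;> simp [siegC, bfc, sh, sf, vec, iA]

lemma coords_elS (c : F3) (x : V7) : siegC (vec 0 0 0 0 0 1 0) sg c x (iA 0) = x (iA 0) ∧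
    siegC (vec 0 0 0 0 0 1 0) sg c x (iA 1) = x (iA 1) ∧
    siegC (vec 0 0 0 0 0 1 0) sg c x (iA 2) = x (iA 2) + c * x (iA 1) := by
  refine ⟨?_, ?_, ?_⟩ <;> simp [siegC, bfc, sg, vec, iA]

/-- Reflection vectors of minus one on the first block. -/
def blockVecs : List V7 := [vec 1 0 0 0 0 0 0, vec 0 1 0 0 1 0 0, vec 0 1 0 0 (-1) 0 0]

lemma blockVecs_ne : ∀ v ∈ blockVecs, Q7 v ≠ 0 := by
  intro v hv
  apply Q7_ne_zero_of
  revert v
  decide +kernel

lemma blockVecs_coords (x : V7) : prodC blockVecs x (iA 0) = -x (iA 0) ∧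
    prodC blockVecs x (iA 1) = x (iA 1) ∧ prodC blockVecs x (iA 2) = x (iA 2) := by
  refine ⟨?_, ?_, ?_⟩ <;>
    simp [prodC, reflC, blockVecs, bfc, vec, iA] <;> ring_nf <;> linear_combination (2 * x (iA 0)) * three_eq_zero

theorem spin_centralizer_C {g : G7} (h : g * zStd 3 = zStd 3 * g)
    (hd : CfsgLib.Classes.detHom Q7 g = 1) : spinSign Q7 1 g = 1 := by
  -- the two by two block has determinant one
  have hP : lin g sv (iA 0) * lin g sv (iA 0) = 1 := by
    have e : Bf (lin g (nC (nC sv))) (lin g sv) = 1 := by rw [Bf_lin, ← bfc_eq]; decide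
    rw [commute_nC h, commute_nC h, ← bfc_eq] at e
    simpa [bfc, nC, vec, iA, iX] using e
  have q1 : lin g sf (iA 0) = 0 := by
    have e := commute_nC h (nC sf)
    rw [commute_nC h sf, show nC (nC sf) = 0 by decide, map_zero] at e
    simpa [nC, vec, iA, iB] using (congrFun e (iB 0)).symm
  have r1 : lin g sg (iA 0) = 0 := by
    have e := commute_nC h (nC sg)
    rw [commute_nC h sg, show nC (nC sg) = 0 by decide, map_zero] at e
    simpa [nC, vec, iA, iB] using (congrFun e (iB 0)).symm
  have hM : lin g sf (iA 1) * lin g sg (iA 2) - lin g sf (iA 2) * lin g sg (iA 1) = 1 := by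
    have e : Bf (lin g (nC sf)) (lin g sg) = 1 := by rw [Bf_lin, ← bfc_eq]; decide
    rw [commute_nC h, ← bfc_eq] at e
    simp [bfc, nC, vec, q1, r1, iA, iX] at e
    linear_combination e
  obtain ⟨a, b, c, d, hq, hr⟩ :=
    reduce_two (lin g sf (iA 1), lin g sf (iA 2)) (lin g sg (iA 1), lin g sg (iA 2)) hM
  set g' := elT d * (elS c * (elT b * (elS a * g))) with hg'
  have hcomm : g' * zStd 3 = zStd 3 * g' := by
    have : Commute g' (zStd 3) :=
      Commute.mul_left (elT_commutes d) (Commute.mul_left (elS_commutes c)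
        (Commute.mul_left (elT_commutes b) (Commute.mul_left (elS_commutes a) h)))
    exact this
  simp only [Prod.mk.injEq] at hq hr
  have hv : ∀ x, lin g' x (iA 0) = lin g x (iA 0) := fun x => by
    simp only [hg', lin_mul, lin_elT, lin_elS, (coords_elT _ _).1, (coords_elS _ _).1]
  have ha1 : ∀ x, lin g' x (iA 2) =
      (lin g x (iA 2) + a * lin g x (iA 1)) +
        c * (lin g x (iA 1) + b * (lin g x (iA 2) + a * lin g x (iA 1))) := fun x => by
    simp only [hg', lin_mul, lin_elT, lin_elS, (coords_elT _ _).2.1, (coords_elT _ _).2.2,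
      (coords_elS _ _).2.1, (coords_elS _ _).2.2]
  have ha2 : ∀ x, lin g' x (iA 1) =
      (lin g x (iA 1) + b * (lin g x (iA 2) + a * lin g x (iA 1))) + d * lin g' x (iA 2) :=
    fun x => by
    simp only [ha1]
    simp only [hg', lin_mul, lin_elT, lin_elS, (coords_elT _ _).2.1, (coords_elT _ _).2.2,
      (coords_elS _ _).2.1, (coords_elS _ _).2.2]
  have f2 : lin g' sf (iA 1) = 1 := by rw [ha2, ha1]; exact hq.1
  have f3 : lin g' sf (iA 2) = 0 := by rw [ha1]; exact hq.2
  have g2 : lin g' sg (iA 1) = 0 := by rw [ha2, ha1]; exact hr.1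
  have g3 : lin g' sg (iA 2) = 1 := by rw [ha1]; exact hr.2
  have hspin : spinSign Q7 1 g' = spinSign Q7 1 g := by
    simp only [hg', map_mul, (elT_sign _).2, (elS_sign _).2, one_mul]
  have hdet : CfsgLib.Classes.detHom Q7 g' = 1 := by
    rw [hg', map_mul, map_mul, map_mul, map_mul, (elT_sign _).1, (elS_sign _).1, (elT_sign _).1,
      (elS_sign _).1, hd]
    simp
  have hε : lin g' sv (iA 0) = 1 := by
    have hne : lin g sv (iA 0) ≠ 0 := fun e => by simp [e] at hP
    rcases unit_cases hne with e | e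
    · rw [hv, e]
    · exfalso
      -- multiply by minus one on the first block
      have hb : prodR blockVecs blockVecs_ne * zStd 3 = zStd 3 * prodR blockVecs blockVecs_ne :=
        lin_eq_of_basis fun j => by
          simp only [lin_mul, lin_zStd, lin_prodR]
          revert j
          decide +kernel
      have hc'' : prodR blockVecs blockVecs_ne * g' * zStd 3 =
          zStd 3 * (prodR blockVecs blockVecs_ne * g') := (Commute.mul_left hb hcomm : _)
      have h9 := pow_nine hc''
        (by rw [lin_mul, lin_prodR, (blockVecs_coords _).1, hv, e, neg_neg])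
        (by rw [lin_mul, lin_prodR, (blockVecs_coords _).2.1, f2])
        (by rw [lin_mul, lin_prodR, (blockVecs_coords _).2.2, f3])
        (by rw [lin_mul, lin_prodR, (blockVecs_coords _).2.1, g2])
        (by rw [lin_mul, lin_prodR, (blockVecs_coords _).2.2, g3])
      have h1 := det_eq_one_of_odd (by decide : Odd 9) h9
      rw [map_mul, det_prodR, hdet] at h1
      exact absurd h1 (by simp [blockVecs]; decide)
  rw [← hspin]
  exact spin_eq_one_of_odd (by decide : Odd 9) (pow_nine hcomm hε f2 f3 g2 g3)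

end CfsgLib.O73
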