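import Cfsg.Agent.Lib.Classes.OmegaSevenThree.Blocks

/-!
Decomposition of an element of order three of `O₇(3)` into orthogonal blocks.
-/

set_option autoImplicit false
set_option linter.unusedSimpArgs false
set_option linter.unusedVariables false

namespace CfsgLib.O73

variable {x : G7}

lemma unit_cases {a : F3} (h : a ≠ 0) : a = 1 ∨ a = -1 := by revert a; decide

lemma unit_sq {a : F3} (h : a ≠ 0) : a * a = 1 := by revert a; decide

/-- A block of size three from a vector. -/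
lemma exists_b3 (hx : x ^ 3 = 1) {v : V7} {a : F3} (hq : qN x v = a) (ha : a ≠ 0) :
    ∃ t : F3, B3 a (v + t • nop x (nop x v)) (nop x (v + t • nop x (nop x v)))
      (nop x (nop x (v + t • nop x (nop x v)))) := by
  refine ⟨a * Bf v v, ?_⟩
  set t := a * Bf v v with ht
  set v' := v + t • nop x (nop x v) with hv'
  have hz : nop x (nop x v') = nop x (nop x v) := by
    rw [hv', map_add, map_smul, nop_cube hx, smul_zero, add_zero]
  have hq' : qN x v' = a := by
    rw [← hq, qN, qN, hz, hv', map_add, map_smul, B22 hx]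
    simp
  have hvv : Bf v' v' = 0 := by
    have e1 : Bf v (nop x (nop x v)) = a := by rw [B02 hx]; exact hq
    have e2 : Bf (nop x (nop x v)) v = a := hq
    simp only [hv', map_add, map_smul, LinearMap.add_apply, LinearMap.smul_apply, smul_eq_mul, e1,
      e2, B22 hx, ht]
    linear_combination (2 * Bf v v) * unit_sq ha + Bf v v * three_eq_zero
  have hww : Bf (nop x v') (nop x v') = -a := by
    rw [← hq', qN, B20 hx, neg_neg]
  refine ⟨unit_sq ha, hvv, ?_, hww, ?_, B12 hx _ _, B22 hx _ _⟩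
  · have h := nop_rel x v' v'
    rw [Bf_comm (nop x v') v', hww] at h
    linear_combination (-1 : F3) * h + (Bf v' (nop x v')) * three_eq_zero
  · rw [B02 hx]; exact hq'

lemma mem_perp3 {v w z r : V7} (h1 : Bf r v = 0) (h2 : Bf r w = 0) (h3 : Bf r z = 0) :
    r ∈ perp ![v, w, z] := by
  rw [mem_perp]
  intro i
  fin_cases i
  exacts [h1, h2, h3]

lemma mem_perp4 {f h g k r : V7} (h1 : Bf r f = 0) (h2 : Bf r h = 0) (h3 : Bf r g = 0)
    (h4 : Bf r k = 0) : r ∈ perp ![f, h, g, k] := by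
  rw [mem_perp]
  intro i
  fin_cases i
  exacts [h1, h2, h3, h4]

/-- Non-degeneracy of a subspace. -/
def Nd (W : Submodule F3 V7) : Prop := ∀ u ∈ W, (∀ w ∈ W, Bf u w = 0) → u = 0

/-- Invariance under `x - 1`. -/
def Inv (x : G7) (W : Submodule F3 V7) : Prop := ∀ u ∈ W, nop x u ∈ W

lemma nd_top : Nd ⊤ := fun u _ h => eq_zero_of_Bf fun v => h v trivial

lemma inv_top : Inv x ⊤ := fun _ _ => trivial

/-- A pair of blocks of size two inside an invariant non-degenerate subspace killed by `(x-1)²`. -/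
lemma exists_b4 (hx : x ^ 3 = 1) {W : Submodule F3 V7} (hW : Inv x W) (hnd : Nd W)
    (h2 : ∀ u ∈ W, nop x (nop x u) = 0) {u : V7} (hu : u ∈ W) (hNu : nop x u ≠ 0) :
    ∃ f ∈ W, ∃ g ∈ W, B4 f (nop x f) g (nop x g) := by
  have hex : ∃ g ∈ W, Bf (nop x u) g = 1 := by
    by_contra hc
    simp only [not_exists, not_and] at hc
    refine hNu (hnd _ (hW u hu) fun g hg => ?_)
    by_contra hne
    exact hc ((Bf (nop x u) g) • g) (W.smul_mem _ hg) (by rw [map_smul, smul_eq_mul, unit_sq hne])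
  obtain ⟨g, hg, hug⟩ := hex
  have h11 : ∀ p ∈ W, ∀ q : V7, Bf (nop x p) (nop x q) = 0 := fun p hp q => by
    have h := B20 hx p q
    rw [h2 p hp, map_zero, LinearMap.zero_apply] at h
    linear_combination h
  have h10 : ∀ p ∈ W, ∀ q : V7, Bf p (nop x q) = -Bf (nop x p) q := fun p hp q => by
    have h := nop_rel x p q
    rw [h11 p hp q] at h
    linear_combination h
  have hself : ∀ p ∈ W, Bf p (nop x p) = 0 := fun p hp => by
    have h := h10 p hp p
    rw [Bf_comm (nop x p) p] at h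
    linear_combination (-1 : F3) * h + (Bf p (nop x p)) * three_eq_zero
  have e2 : Bf u (nop x g) = -1 := by rw [h10 u hu, hug]
  set f := u - Bf u u • nop x g with hf
  have hfW : f ∈ W := W.sub_mem hu (W.smul_mem _ (hW g hg))
  have hNf : nop x f = nop x u := by
    rw [hf, map_sub, map_smul, h2 g hg, smul_zero, sub_zero]
  set g₁ := g + Bf g g • nop x u with hg₁
  have hg₁W : g₁ ∈ W := W.add_mem hg (W.smul_mem _ (hW u hu))
  have hNg₁ : nop x g₁ = nop x g := by
    rw [hg₁, map_add, map_smul, h2 u hu, smul_zero, add_zero]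
  set g₂ := g₁ + Bf f g₁ • nop x g with hg₂
  have hg₂W : g₂ ∈ W := W.add_mem hg₁W (W.smul_mem _ (hW g hg))
  have hNg₂ : nop x g₂ = nop x g := by
    rw [hg₂, map_add, map_smul, h2 g hg, smul_zero, add_zero, hNg₁]
  have eff : Bf f f = 0 := by
    simp only [hf, map_sub, map_smul, LinearMap.sub_apply, LinearMap.smul_apply, smul_eq_mul,
      Bf_comm (nop x g) u, e2, h11 g hg]
    linear_combination (Bf u u) * three_eq_zero
  have efg : Bf f (nop x g) = -1 := by
    simp only [hf, map_sub, map_smul, LinearMap.sub_apply, LinearMap.smul_apply, smul_eq_mul, e2,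
      h11 g hg]
    ring
  have egg1 : Bf g₁ g₁ = 0 := by
    simp only [hg₁, map_add, map_smul, LinearMap.add_apply, LinearMap.smul_apply, smul_eq_mul,
      Bf_comm g (nop x u), hug, h11 u hu]
    linear_combination (Bf g g) * three_eq_zero
  have egk : Bf g₁ (nop x g) = 0 := by rw [← hNg₁]; exact hself g₁ hg₁W
  refine ⟨f, hfW, g₂, hg₂W, ⟨eff, hself f hfW, ?_, ?_, h11 f hfW f, ?_, h11 f hfW _, ?_,
    hself g₂ hg₂W, h11 g₂ hg₂W _⟩⟩
  · simp only [hg₂, map_add, map_smul, smul_eq_mul, efg]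
    ring
  · rw [hNg₂, efg]
  · simp only [hNf, hg₂, hg₁, map_add, map_smul, smul_eq_mul, hug, h11 u hu]
    ring
  · simp only [hg₂, map_add, map_smul, LinearMap.add_apply, LinearMap.smul_apply, smul_eq_mul,
      egg1, egk, Bf_comm (nop x g) g₁, h11 g hg]
    ring

lemma perp3_inv (hx : x ^ 3 = 1) (v : V7) :
    Inv x (perp ![v, nop x v, nop x (nop x v)]) := by
  intro r hr
  rw [mem_perp] at hr ⊢
  have h0 : Bf r v = 0 := hr 0
  have h1 : Bf r (nop x v) = 0 := hr 1
  have h2 : Bf r (nop x (nop x v)) = 0 := hr 2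
  have hw : Bf (nop x r) (nop x v) = 0 := by
    rw [← neg_eq_zero, ← B20 hx, ← B02 hx, h2]
  intro i
  fin_cases i
  · show Bf (nop x r) v = 0
    have h := nop_rel x r v
    linear_combination h - h1 - hw
  · exact hw
  · exact B12 hx r v

lemma perp4_inv (hx : x ^ 3 = 1) {f g : V7} (hf : nop x (nop x f) = 0) (hg : nop x (nop x g) = 0) :
    Inv x (perp ![f, nop x f, g, nop x g]) := by
  intro r hr
  rw [mem_perp] at hr ⊢
  have h1 : Bf r (nop x f) = 0 := hr 1
  have h3 : Bf r (nop x g) = 0 := hr 3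
  have hw : ∀ p, nop x (nop x p) = 0 → Bf (nop x r) (nop x p) = 0 := fun p hp => by
    rw [← neg_eq_zero, ← B20 hx, ← B02 hx, hp, map_zero]
  intro i
  fin_cases i
  · show Bf (nop x r) f = 0
    linear_combination nop_rel x r f - h1 - hw f hf
  · exact hw f hf
  · show Bf (nop x r) g = 0
    linear_combination nop_rel x r g - h3 - hw g hg
  · exact hw g hg

lemma nd_inter {κ : Type*} {W : Submodule F3 V7} (hnd : Nd W) {p : κ → V7} (hp : ∀ i, p i ∈ W)
    (hdec : ∀ u, ∃ s ∈ Submodule.span F3 (Set.range p), u - s ∈ perp p) : Nd (W ⊓ perp p) := by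
  rintro u ⟨huW, hup⟩ h
  refine hnd u huW fun y hy => ?_
  obtain ⟨s, hs, hr⟩ := hdec y
  have hsW : s ∈ W := Submodule.span_le.mpr (by rintro _ ⟨i, rfl⟩; exact hp i) hs
  have h1 : Bf u (y - s) = 0 := h _ ⟨W.sub_mem hy hsW, hr⟩
  have h2 : Bf u s = 0 := by
    have : Submodule.span F3 (Set.range p) ≤ LinearMap.ker (Bf u) := Submodule.span_le.mpr (by
      rintro _ ⟨i, rfl⟩
      exact mem_perp.mp hup i)
    exact this hs
  rw [map_sub] at h1
  linear_combination h1 + h2

lemma hdec3 {a : F3} {v w z : V7} (b : B3 a v w z) (u : V7) :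
    ∃ s ∈ Submodule.span F3 (Set.range ![v, w, z]), u - s ∈ perp ![v, w, z] := by
  obtain ⟨α, β, γ, r, hu, h1, h2, h3⟩ := decomp3 b u
  refine ⟨α • v + β • w + γ • z, ?_, ?_⟩
  · refine add_mem (add_mem ?_ ?_) ?_ <;> refine Submodule.smul_mem _ _ (Submodule.subset_span ?_)
    exacts [⟨0, rfl⟩, ⟨1, rfl⟩, ⟨2, rfl⟩]
  · rw [hu, add_sub_cancel_left]
    exact mem_perp3 h1 h2 h3

lemma hdec4 {f h g k : V7} (b : B4 f h g k) (u : V7) :
    ∃ s ∈ Submodule.span F3 (Set.range ![f, h, g, k]), u - s ∈ perp ![f, h, g, k] := by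
  obtain ⟨α, β, γ, δ, r, hu, h1, h2, h3, h4⟩ := decomp4 b u
  refine ⟨α • f + β • h + γ • g + δ • k, ?_, ?_⟩
  · refine add_mem (add_mem (add_mem ?_ ?_) ?_) ?_ <;>
      refine Submodule.smul_mem _ _ (Submodule.subset_span ?_)
    exacts [⟨0, rfl⟩, ⟨1, rfl⟩, ⟨2, rfl⟩, ⟨3, rfl⟩]
  · rw [hu, add_sub_cancel_left]
    exact mem_perp4 h1 h2 h3 h4

lemma nd3 {a : F3} {v w z : V7} (b : B3 a v w z) : Nd (perp ![v, w, z]) := by
  have := nd_inter nd_top (p := ![v, w, z]) (fun _ => trivial) (hdec3 b)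
  rwa [top_inf_eq] at this

lemma nd4 {f h g k : V7} (b : B4 f h g k) : Nd (perp ![f, h, g, k]) := by
  have := nd_inter nd_top (p := ![f, h, g, k]) (fun _ => trivial) (hdec4 b)
  rwa [top_inf_eq] at this

end CfsgLib.O73
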