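import Cfsg.Agent.Lib.Classes.OmegaSevenThree.CentralizerC

/-!
Invariants separating the standard elements up to conjugation and inversion.
-/

set_option autoImplicit false
set_option linter.unusedSimpArgs false
set_option linter.unusedVariables false

namespace CfsgLib.O73

/-- `(x - 1)²` vanishes. -/
def SqZero (x : G7) : Prop := ∀ u, nop x (nop x u) = 0

/-- `B((x-1)²u, u)` takes the value `a`. -/
def Takes (a : F3) (x : G7) : Prop := ∃ u, qN x u = a

/-- The kernel of `(x-1)²` is carried by `x-1` into the image of `(x-1)²`. -/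
def KerShort (x : G7) : Prop :=
  ∀ u, nop x (nop x u) = 0 → ∃ w, nop x u = nop x (nop x w)

/-- A singular vector outside the kernel of `(x-1)²`. -/
def Isotropic (x : G7) : Prop := ∃ u, qN x u = 0 ∧ nop x (nop x u) ≠ 0

/-- The invariant of an element. -/
def Inv4 (x y : G7) : Prop :=
  (SqZero x ↔ SqZero y) ∧ (∀ a, Takes a x ↔ Takes a y) ∧ (KerShort x ↔ KerShort y) ∧
    (Isotropic x ↔ Isotropic y)

lemma nop_conj (g x : G7) (u : V7) : nop (g * x * g⁻¹) (lin g u) = lin g (nop x u) := by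
  have h : lin (g * x * g⁻¹) (lin g u) = lin g (lin x u) := by
    rw [← lin_mul, inv_mul_cancel_right, lin_mul]
  rw [lin_eq, lin_eq x, map_add] at h
  exact add_left_cancel h

lemma inv4_conj (g x : G7) : Inv4 x (g * x * g⁻¹) := by
  have hN : ∀ u, nop (g * x * g⁻¹) (nop (g * x * g⁻¹) (lin g u)) = lin g (nop x (nop x u)) :=
    fun u => by rw [nop_conj, nop_conj]
  have hq : ∀ u, qN (g * x * g⁻¹) (lin g u) = qN x u := fun u => by rw [qN, hN, Bf_lin, qN]
  have hs : ∀ v, ∃ u, lin g u = v := fun v =>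
    ⟨lin g⁻¹ v, by rw [← lin_mul, mul_inv_cancel, lin_one]⟩
  have hi : Function.Injective (lin g) := fun p q h => by
    have := congrArg (lin g⁻¹) h
    rwa [← lin_mul, ← lin_mul, inv_mul_cancel, lin_one, lin_one] at this
  have h0 : ∀ u, lin g u = 0 ↔ u = 0 := fun u => by
    rw [← map_zero (lin g)]
    exact hi.eq_iff
  refine ⟨⟨fun h v => ?_, fun h u => ?_⟩, fun a => ⟨?_, ?_⟩, ⟨fun h v hv => ?_, fun h u hu => ?_⟩,
    ⟨?_, ?_⟩⟩
  · obtain ⟨u, rfl⟩ := hs v
    rw [hN, h, map_zero]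
  · rw [← h0, ← hN]; exact h _
  · rintro ⟨u, hu⟩; exact ⟨lin g u, by rw [hq, hu]⟩
  · rintro ⟨v, hv⟩
    obtain ⟨u, rfl⟩ := hs v
    exact ⟨u, by rw [← hq, hv]⟩
  · obtain ⟨u, rfl⟩ := hs v
    rw [hN, h0] at hv
    obtain ⟨w, hw⟩ := h u hv
    exact ⟨lin g w, by rw [nop_conj, hN, hw]⟩
  · obtain ⟨v, hv⟩ := h (lin g u) (by rw [hN, hu, map_zero])
    obtain ⟨w, rfl⟩ := hs v
    rw [nop_conj, hN] at hv
    exact ⟨w, hi hv⟩
  · rintro ⟨u, hu, hne⟩; exact ⟨lin g u, by rw [hq, hu], by rw [hN, Ne, h0]; exact hne⟩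
  · rintro ⟨v, hv, hne⟩
    obtain ⟨u, rfl⟩ := hs v
    exact ⟨u, by rw [← hq, hv], by rwa [hN, Ne, h0] at hne⟩

lemma four_eq_one : (4 : F3) = 1 := by decide

lemma nop_sq (x : G7) (u : V7) : nop (x * x) u = (2 : F3) • nop x u + nop x (nop x u) := by
  have h : lin (x * x) u = lin x (lin x u) := lin_mul x x u
  rw [lin_eq, lin_eq x, lin_eq x, map_add] at h
  rw [two_smul]
  apply add_left_cancel (a := u)
  rw [h]; abel

lemma inv4_sq {x : G7} (hx : x ^ 3 = 1) : Inv4 x (x * x) := by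
  have hN : ∀ u, nop (x * x) (nop (x * x) u) = nop x (nop x u) := fun u => by
    simp only [nop_sq, map_add, map_smul, nop_cube hx, map_zero, add_zero, smul_zero, smul_add,
      smul_smul]
    simp [show (2 : F3) * 2 = 1 by decide]
  have hq : ∀ u, qN (x * x) u = qN x u := fun u => by rw [qN, hN, qN]
  refine ⟨by simp only [SqZero, hN], fun a => by simp only [Takes, hq],
    ⟨fun h u hu => ?_, fun h u hu => ?_⟩, by simp only [Isotropic, hN, hq]⟩
  · rw [hN] at hu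
    obtain ⟨w, hw⟩ := h u hu
    exact ⟨(2 : F3) • w + u, by rw [hN, nop_sq, map_add, map_add, map_smul, map_smul, hw]⟩
  · obtain ⟨w, hw⟩ := h u (by rw [hN, hu])
    rw [nop_sq, hu, add_zero, hN] at hw
    refine ⟨(2 : F3) • w, ?_⟩
    rw [map_smul, map_smul, ← hw, smul_smul]
    simp [show (2 : F3) * 2 = 1 by decide]

lemma Inv4.trans {x y z : G7} (h : Inv4 x y) (h' : Inv4 y z) : Inv4 x z :=
  ⟨h.1.trans h'.1, fun a => (h.2.1 a).trans (h'.2.1 a), h.2.2.1.trans h'.2.2.1,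
    h.2.2.2.trans h'.2.2.2⟩

lemma Inv4.symm {x y : G7} (h : Inv4 x y) : Inv4 y x :=
  ⟨h.1.symm, fun a => (h.2.1 a).symm, h.2.2.1.symm, h.2.2.2.symm⟩

/-- The squares of `z - 1` for the standard elements. -/
def sqC : Fin 6 → V7 → V7 :=
  ![fun _ => 0, fun u => vec 0 0 0 0 (u (iA 0)) 0 0, fun u => vec 0 0 0 0 (-u (iA 0)) 0 0,
    fun u => vec 0 0 0 0 (u (iA 0)) 0 0, fun u => vec 0 0 0 0 (u (iA 0)) (u (iA 1)) 0,
    fun u => vec 0 0 0 0 (u (iA 0)) (-u (iA 1)) 0]

lemma nop_zStd (i : Fin 6) (u : V7) : nop (zStd i) u = stdC i u := by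
  have h := lin_zStd i u
  rw [lin_eq, linC] at h
  exact add_left_cancel h

lemma nop_sq_zStd (i : Fin 6) (u : V7) : nop (zStd i) (nop (zStd i) u) = sqC i u := by
  rw [nop_zStd, nop_zStd]
  have hb : ∀ j : I7, stdC i (stdC i (Pi.single j 1)) = sqC i (Pi.single j 1) := by
    revert i
    decide +kernel
  have hl : (nop (zStd i)) ∘ₗ (nop (zStd i)) = (Pi.basisFun F3 I7).constr F3
      fun j => sqC i (Pi.single j 1) := (Pi.basisFun F3 I7).ext fun j => by
    rw [Module.Basis.constr_basis, LinearMap.comp_apply, Pi.basisFun_apply, nop_zStd, nop_zStd, hb]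
  have h := LinearMap.congr_fun hl u
  rw [LinearMap.comp_apply, nop_zStd, nop_zStd] at h
  rw [h, Module.Basis.constr_apply_fintype]
  ext (k | k | k) <;> fin_cases k <;> fin_cases i <;>
    simp [sqC, vec, Fintype.sum_sum_type, Fin.sum_univ_three, iA, Pi.single_apply]

lemma qN_zStd (i : Fin 6) (u : V7) : qN (zStd i) u = bfc (sqC i u) u := by
  rw [qN, nop_sq_zStd, bfc_eq]

/-- The value of `B((z-1)²u, u)` in terms of two coordinates. -/
def qC : Fin 6 → F3 → F3 → F3 :=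
  ![fun _ _ => 0, fun a _ => a * a, fun a _ => -(a * a), fun a _ => a * a,
    fun a b => a * a + b * b, fun a b => a * a - b * b]

lemma qN_zStd' (i : Fin 6) (u : V7) : qN (zStd i) u = qC i (u (iA 0)) (u (iA 1)) := by
  rw [qN_zStd]
  fin_cases i <;> simp [qC, sqC, bfc, vec, iA] <;> ring

lemma takes_iff (i : Fin 6) (a : F3) : Takes a (zStd i) ↔ ∃ p q, qC i p q = a := by
  constructor
  · rintro ⟨u, hu⟩
    exact ⟨_, _, (qN_zStd' i u).symm.trans hu⟩
  · rintro ⟨p, q, h⟩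
    exact ⟨vec 0 p q 0 0 0 0, by rw [qN_zStd']; exact h⟩

lemma sqZero_zStd : ∀ i : Fin 6, SqZero (zStd i) ↔ i = 0 := by
  intro i
  constructor
  · intro h
    have h' := h sv
    rw [nop_sq_zStd] at h'
    clear h
    revert h'
    revert i
    decide +kernel
  · rintro rfl u
    rw [nop_sq_zStd]
    rfl

lemma kerShort_one : KerShort (zStd 1) := by
  intro u hu
  rw [nop_sq_zStd] at hu
  have h0 : u (iA 0) = 0 := by simpa [sqC, vec, iA, iB] using congrFun hu (iB 0)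
  refine ⟨u iX • sv, ?_⟩
  rw [nop_sq_zStd, nop_zStd]
  ext (k | k | k) <;> fin_cases k <;>
    simp [stdC, c3, bfc, sqC, vec, sv, sw, sz, iA, iX] at h0 ⊢ <;> simp [h0] <;> ring_nf <;>
    linear_combination (-u iX) * three_eq_zero

lemma not_kerShort_three : ¬ KerShort (zStd 3) := by
  intro h
  obtain ⟨w, hw⟩ := h sf (by rw [nop_sq_zStd]; decide +kernel)
  rw [nop_sq_zStd, nop_zStd, stdC_three] at hw
  simpa [nC, sqC, vec, sf, iA, iB] using congrFun hw (iB 2)

lemma isotropic_five : Isotropic (zStd 5) :=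
  ⟨vec 0 1 1 0 0 0 0, by rw [qN_zStd']; decide +kernel, by rw [nop_sq_zStd]; decide +kernel⟩

lemma not_isotropic_four : ¬ Isotropic (zStd 4) := by
  rintro ⟨u, hu, hne⟩
  rw [qN_zStd'] at hu
  apply hne
  have key : ∀ p q : F3, qC 4 p q = 0 → p = 0 ∧ q = 0 := by decide +kernel
  obtain ⟨hp, hq⟩ := key _ _ hu
  rw [nop_sq_zStd]
  ext (k | k | k) <;> fin_cases k <;> simp [sqC, vec, hp, hq]

theorem inv4_injective {i j : Fin 6} (h : Inv4 (zStd i) (zStd j)) : i = j := by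
  obtain ⟨h1, h2, h3, h4⟩ := h
  rw [sqZero_zStd, sqZero_zStd] at h1
  have hp := h2 1
  have hm := h2 (-1)
  rw [takes_iff, takes_iff] at hp hm
  have key : ∀ i j : Fin 6, (i = 0 ↔ j = 0) →
      ((∃ p q, qC i p q = 1) ↔ ∃ p q, qC j p q = 1) →
      ((∃ p q, qC i p q = -1) ↔ ∃ p q, qC j p q = -1) →
      i = j ∨ (i = 1 ∧ j = 3) ∨ (i = 3 ∧ j = 1) ∨ (i = 4 ∧ j = 5) ∨ (i = 5 ∧ j = 4) := by
    decide +kernel
  rcases key i j h1 hp hm with h | ⟨rfl, rfl⟩ | ⟨rfl, rfl⟩ | ⟨rfl, rfl⟩ | ⟨rfl, rfl⟩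
  · exact h
  · exact absurd (h3.mp kerShort_one) not_kerShort_three
  · exact absurd (h3.mpr kerShort_one) not_kerShort_three
  · exact absurd (h4.mpr isotropic_five) not_isotropic_four
  · exact absurd (h4.mp isotropic_five) not_isotropic_four

end CfsgLib.O73
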