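import Cfsg.Agent.Lib.Classes.OmegaSevenThree.Invariants
import Cfsg.Agent.Lib.ClassicalForms.Ortho.Index

/-!
`Ω₇(3)` has exactly seven classes of subgroups of order three.
-/

set_option autoImplicit false
set_option linter.unusedSimpArgs false
set_option linter.unusedVariables false

namespace CfsgLib.O73

open CfsgLib.OrthGen

/-- Minus the identity. -/
noncomputable def negG : G7 :=
  mkIso Q7 (-1) (-1) (by simp) (by simp) (fun u => by
    rw [Matrix.neg_mulVec, Matrix.one_mulVec, QuadraticMap.map_neg])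

lemma lin_negG (u : V7) : lin negG u = -u := by
  rw [lin_apply, act, negG, coe_mkIso, Matrix.neg_mulVec, Matrix.one_mulVec]

lemma negG_comm (x : G7) : negG * x = x * negG :=
  lin_ext fun u => by rw [lin_mul, lin_mul, lin_negG, lin_negG, map_neg]

lemma det_negG : CfsgLib.Classes.detHom Q7 negG = -1 := by
  simp only [CfsgLib.Classes.detHom, CfsgLib.Classes.matHom, MonoidHom.comp_apply,
    Units.coeHom_apply, Subgroup.coe_subtype, Matrix.coe_detMonoidHom]
  rw [negG, coe_mkIso, Matrix.det_neg, Matrix.det_one, mul_one]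
  norm_num [Fintype.card_sum]

/-- The commutator subgroup. -/
abbrev Om : Subgroup G7 := Cfsg.Omega F3 (⇑Q7)

lemma mem_Om (g : G7) :
    g ∈ Om ↔ CfsgLib.Classes.detHom Q7 g = 1 ∧ spinSign Q7 1 g = 1 :=
  CfsgLib.Classes.mem_omega_iff two_ne_zero7 nondeg_Q7 (by simp) g

/-- The seven representatives. -/
noncomputable def reps : Fin 7 → G7 :=
  ![zStd 0, zStd 1, zStd 2, zStd 3, zStd 4, zStd 5, flipElt 3 * zStd 3 * (flipElt 3)⁻¹]

lemma zStd_pow_three (i : Fin 6) : zStd i ^ 3 = 1 := by
  fin_cases i <;> simp [zStd, zA, zP, zM, zC, zDP, zDM, eltOf_pow_three]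

lemma reps_pow_three (i : Fin 7) : reps i ^ 3 = 1 := by
  fin_cases i
  · exact zStd_pow_three 0
  · exact zStd_pow_three 1
  · exact zStd_pow_three 2
  · exact zStd_pow_three 3
  · exact zStd_pow_three 4
  · exact zStd_pow_three 5
  · show (flipElt 3 * zStd 3 * (flipElt 3)⁻¹) ^ 3 = 1
    rw [conj_pow, zStd_pow_three, mul_one, mul_inv_cancel]

lemma reps_mem (i : Fin 7) : reps i ∈ Om :=
  (mem_Om _).mpr ⟨det_eq_one_of_odd (by decide : Odd 3) (reps_pow_three i),
    spin_eq_one_of_odd (by decide : Odd 3) (reps_pow_three i)⟩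

/-- The standard element attached to a representative. -/
def sigOf : Fin 7 → Fin 6 := ![0, 1, 2, 3, 4, 5, 3]

lemma inv4_reps (i : Fin 7) : Inv4 (zStd (sigOf i)) (reps i) := by
  have hr : ∀ x : G7, Inv4 x x := fun x => ⟨Iff.rfl, fun _ => Iff.rfl, Iff.rfl, Iff.rfl⟩
  fin_cases i
  · exact hr (zStd 0)
  · exact hr (zStd 1)
  · exact hr (zStd 2)
  · exact hr (zStd 3)
  · exact hr (zStd 4)
  · exact hr (zStd 5)
  · exact inv4_conj _ _

lemma not_conj_C {g : G7} (hg : g ∈ Om) (h : g * zStd 3 * g⁻¹ = reps 6 ∨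
    g * zStd 3 * g⁻¹ = reps 6 * reps 6) : False := by
  obtain ⟨hd, hs⟩ := (mem_Om g).mp hg
  set r := flipElt 3 with hr
  have h6 : reps 6 = r * zStd 3 * r⁻¹ := rfl
  rw [h6] at h
  have hk : CfsgLib.Classes.detHom Q7 (r⁻¹ * g) = 1 := by
    have h1 : CfsgLib.Classes.detHom Q7 (r * (r⁻¹ * g)) = 1 := by rw [mul_inv_cancel_left, hd]
    rwa [map_mul, hr, det_flipElt, one_mul, ← hr] at h1
  have hks : spinSign Q7 1 (r⁻¹ * g) = -1 := by
    rw [map_mul, map_inv, hr, spin_flipElt, hs]
    decide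
  rcases h with h | h
  · have hc : (r⁻¹ * g) * zStd 3 = zStd 3 * (r⁻¹ * g) := by
      rw [mul_inv_eq_iff_eq_mul] at h
      calc (r⁻¹ * g) * zStd 3 = r⁻¹ * (g * zStd 3) := by group
        _ = r⁻¹ * (r * zStd 3 * r⁻¹ * g) := by rw [h]
        _ = zStd 3 * (r⁻¹ * g) := by group
    rw [spin_centralizer_C hc hk] at hks
    exact absurd hks (by decide)
  · have hc : tau * (r⁻¹ * g) * zStd 3 = zStd 3 * (tau * (r⁻¹ * g)) := by
      have h4 : zStd 3 * zStd 3 * (zStd 3 * zStd 3) = zStd 3 := by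
        calc zStd 3 * zStd 3 * (zStd 3 * zStd 3) = zStd 3 ^ 3 * zStd 3 := by
              rw [pow_three]; group
          _ = zStd 3 := by rw [zStd_pow_three, one_mul]
      rw [mul_inv_eq_iff_eq_mul] at h
      calc tau * (r⁻¹ * g) * zStd 3 = tau * r⁻¹ * (g * zStd 3) := by group
        _ = tau * r⁻¹ * (r * zStd 3 * r⁻¹ * (r * zStd 3 * r⁻¹) * g) := by rw [h]
        _ = (tau * zStd 3) * zStd 3 * (r⁻¹ * g) := by group
        _ = zStd 3 * zStd 3 * (tau * zStd 3) * (r⁻¹ * g) := by
              conv_lhs => rw [tau_inverts]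
              group
        _ = (zStd 3 * zStd 3 * (zStd 3 * zStd 3)) * (tau * (r⁻¹ * g)) := by
              rw [tau_inverts]; group
        _ = zStd 3 * (tau * (r⁻¹ * g)) := by rw [h4]
    have := spin_centralizer_C hc (by rw [map_mul, det_tau, hk, one_mul])
    rw [map_mul, spin_tau, hks, one_mul] at this
    exact absurd this (by decide)

theorem reps_injective {i j : Fin 7} {g : G7} (hg : g ∈ Om)
    (h : g * reps i * g⁻¹ = reps j ∨ g * reps i * g⁻¹ = reps j * reps j) : i = j := by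
  have hInv : Inv4 (reps i) (reps j) := by
    rcases h with h | h
    · rw [← h]; exact inv4_conj _ _
    · have h1 : Inv4 (reps i) (reps j * reps j) := by rw [← h]; exact inv4_conj _ _
      exact h1.trans (inv4_sq (reps_pow_three j)).symm
  have hsig := inv4_injective (((inv4_reps i).trans hInv).trans (inv4_reps j).symm)
  have key : ∀ i j : Fin 7, sigOf i = sigOf j → i = j ∨ (i = 3 ∧ j = 6) ∨ (i = 6 ∧ j = 3) := by
    decide
  rcases key i j hsig with h' | ⟨rfl, rfl⟩ | ⟨rfl, rfl⟩
  · exact h'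
  · exact (not_conj_C hg h).elim
  · exfalso
    refine not_conj_C (Om.inv_mem hg) ?_
    have e3 : reps 3 = zStd 3 := rfl
    rw [e3] at h
    rcases h with h | h
    · left; rw [← h]; group
    · right
      have : reps 6 * reps 6 = g⁻¹ * (zStd 3 * zStd 3 * (zStd 3 * zStd 3)) * g := by
        rw [← h]; group
      rw [this, show zStd 3 * zStd 3 * (zStd 3 * zStd 3) = zStd 3 ^ 3 * zStd 3 by
        rw [pow_three]; group, zStd_pow_three, one_mul, inv_inv]

theorem reps_surjective {x : G7} (hx : x ^ 3 = 1) (hne : x ≠ 1) :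
    ∃ (i : Fin 7) (g : G7), g ∈ Om ∧ g * x * g⁻¹ = reps i := by
  obtain ⟨i, g, hg⟩ := exists_conj_std hx hne
  obtain ⟨g₁, hg₁, hd₁⟩ : ∃ g₁ : G7, g₁ * x * g₁⁻¹ = zStd i ∧
      CfsgLib.Classes.detHom Q7 g₁ = 1 := by
    have hd0 : CfsgLib.Classes.detHom Q7 g ≠ 0 := fun e => by
      have := map_mul (CfsgLib.Classes.detHom Q7) g g⁻¹
      rw [mul_inv_cancel, map_one, e, zero_mul] at this
      exact one_ne_zero this
    rcases unit_cases hd0 with e | e
    · exact ⟨g, hg, e⟩
    · refine ⟨negG * g, ?_, by rw [map_mul, det_negG, e]; decide⟩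
      rw [← hg]
      calc negG * g * x * (negG * g)⁻¹ = negG * (g * x * g⁻¹) * negG⁻¹ := by group
        _ = g * x * g⁻¹ := by rw [negG_comm, mul_inv_cancel_right]
  obtain ⟨j, hj⟩ : ∃ j : Fin 7, reps j = zStd i := by
    refine ⟨i.castSucc, ?_⟩
    fin_cases i <;> rfl
  rcases Int.units_eq_one_or (spinSign Q7 1 g₁) with e | e
  · exact ⟨j, g₁, (mem_Om _).mpr ⟨hd₁, e⟩, hg₁.trans hj.symm⟩
  · have hmem : flipElt i * g₁ ∈ Om := (mem_Om _).mpr
      ⟨by rw [map_mul, det_flipElt, hd₁, one_mul], by rw [map_mul, spin_flipElt, e]; decide⟩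
    by_cases hi : i = 3
    · subst hi
      refine ⟨6, flipElt 3 * g₁, hmem, ?_⟩
      show _ = flipElt 3 * zStd 3 * (flipElt 3)⁻¹
      rw [← hg₁]; group
    · refine ⟨j, flipElt i * g₁, hmem, ?_⟩
      rw [hj]
      calc flipElt i * g₁ * x * (flipElt i * g₁)⁻¹
          = flipElt i * (g₁ * x * g₁⁻¹) * (flipElt i)⁻¹ := by group
        _ = zStd i := by rw [hg₁, flip_commutes hi, mul_inv_cancel_right]

lemma reps_ne_one (i : Fin 7) : reps i ≠ 1 := by
  intro h
  have h0 : zStd (sigOf i) ≠ 1 := by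
    intro e
    have hz : ∀ u, stdC (sigOf i) u = 0 := fun u => by
      rw [← nop_zStd, (nop_eq_zero_iff _).mpr e]
    have h1 := hz sv
    have h2 := hz sf
    revert h1 h2
    generalize sigOf i = k
    revert k
    decide +kernel
  apply h0
  rcases Classical.em (i = 6) with rfl | h6
  · have e : flipElt 3 * zStd 3 * (flipElt 3)⁻¹ = 1 := h
    exact conj_eq_one_iff.mp e
  · fin_cases i
    all_goals first | exact h | exact absurd rfl h6

lemma center_eq_bot : Subgroup.center (↥Om) = ⊥ := by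
  have h2 : (2 : F3) ≠ 0 := two_ne_zero7
  have hQ := CfsgLib.ClassicalForms.nondeg_qOdd (F := F3) h2 3
  have hgen := CfsgLib.ClassicalForms.isGen_qOdd (F := F3) h2 3
  have hc := CfsgLib.ClassicalForms.commutator_eq_siegelGroup hQ (by simp) hgen
  let e : ↥Om ≃* ↥(CfsgLib.ClassicalForms.siegelGroup (CfsgLib.ClassicalForms.qOdd 3 F3)) :=
    (CfsgLib.ClassicalForms.commutatorCongr (CfsgLib.ClassicalForms.isoMat
      (CfsgLib.ClassicalForms.qOdd 3 F3) (f := ⇑Q7) fun _ => rfl)).trans
      (MulEquiv.subgroupCongr hc)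
  have h1 := CfsgLib.ClassicalForms.card_center_siegelGroup h2 hQ (by simp)
  rw [if_neg (by
    rw [CfsgLib.ClassicalForms.negI_mem_iff h2 hQ (by simp) hgen]
    rintro ⟨he, -⟩
    exact absurd he (by simp; decide))] at h1
  refine (Subgroup.card_eq_one).mp ?_
  rw [← h1]
  exact Nat.card_congr (e.toEquiv.subtypeEquiv fun x => by
    constructor
    · intro hx
      exact Subgroup.mem_center_iff.mpr fun y => by
        have := congrArg e (Subgroup.mem_center_iff.mp hx (e.symm y))
        simpa using this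
    · intro hx
      exact Subgroup.mem_center_iff.mpr fun y => e.injective (by
        simpa using Subgroup.mem_center_iff.mp hx (e y)))

/-- The classes statement for a group. -/
def SevenClasses (H : Type) [Group H] : Prop :=
  ∃ Y : Fin 7 → Subgroup H, (∀ i, Nat.card (Y i) = 3) ∧
    (∀ i j, (∃ g : H, (Y i).map (MulAut.conj g).toMonoidHom = Y j) → i = j) ∧
    (∀ X : Subgroup H, Nat.card X = 3 → ∃ i, ∃ g : H, X.map (MulAut.conj g).toMonoidHom = Y i)

theorem sevenClasses_of_equiv {H H' : Type} [Group H] [Group H'] (e : H ≃* H')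
    (h : SevenClasses H) : SevenClasses H' := by
  obtain ⟨Y, h1, h2, h3⟩ := h
  have hc : ∀ (g : H) (S : Subgroup H), (S.map (MulAut.conj g).toMonoidHom).map e.toMonoidHom =
      (S.map e.toMonoidHom).map (MulAut.conj (e g)).toMonoidHom := fun g S => by
    rw [Subgroup.map_map, Subgroup.map_map]
    congr 1
    ext x
    simp
  refine ⟨fun i => (Y i).map e.toMonoidHom, fun i => ?_, fun i j => ?_, fun X hX => ?_⟩
  · rw [← h1 i]
    exact (Nat.card_congr (e.subgroupMap (Y i)).toEquiv).symm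
  · rintro ⟨g, hg⟩
    refine h2 i j ⟨e.symm g, Subgroup.map_injective (f := e.toMonoidHom) e.injective ?_⟩
    show ((Y i).map _).map e.toMonoidHom = _
    rw [hc, e.apply_symm_apply]
    exact hg
  · obtain ⟨i, g, hg⟩ := h3 (X.map e.symm.toMonoidHom)
      ((Nat.card_congr (e.symm.subgroupMap X).toEquiv).symm.trans hX)
    refine ⟨i, e g, ?_⟩
    have := congrArg (Subgroup.map e.toMonoidHom) hg
    rw [hc, Subgroup.map_map] at this
    convert this using 2
    ext y
    simp [Subgroup.mem_map]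

theorem sevenClasses_Om : SevenClasses ↥Om := by
  haveI : Fact (Nat.Prime 3) := ⟨Nat.prime_three⟩
  let y : Fin 7 → ↥Om := fun i => ⟨reps i, reps_mem i⟩
  have hy : ∀ i, orderOf (y i) = 3 := fun i => orderOf_eq_prime (Subtype.ext (reps_pow_three i))
    fun h => reps_ne_one i (congrArg Subtype.val h)
  refine ⟨fun i => Subgroup.zpowers (y i), fun i => ?_, fun i j => ?_, fun X hX => ?_⟩
  · rw [Nat.card_zpowers, hy]
  · rintro ⟨g, hg⟩
    rw [MonoidHom.map_zpowers] at hg
    have hmem : (MulAut.conj g).toMonoidHom (y i) ∈ Subgroup.zpowers (y j) :=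
      hg.le (Subgroup.mem_zpowers _)
    obtain ⟨k, hk⟩ := hmem
    have hk' : y j ^ (k % 3) = MulAut.conj g (y i) := by
      have := zpow_mod_orderOf (y j) k
      rw [hy] at this
      exact this.trans hk
    have h3 : k % 3 = 0 ∨ k % 3 = 1 ∨ k % 3 = 2 := by omega
    rcases h3 with h3 | h3 | h3 <;> rw [h3] at hk'
    · rw [zpow_zero, eq_comm, EmbeddingLike.map_eq_one_iff] at hk'
      exact absurd (congrArg Subtype.val hk') (reps_ne_one i)
    · rw [zpow_one] at hk'
      exact reps_injective g.2 (Or.inl (congrArg Subtype.val hk').symm)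
    · rw [zpow_two] at hk'
      exact reps_injective g.2 (Or.inr (congrArg Subtype.val hk').symm)
  · haveI : Finite X := Nat.finite_of_card_ne_zero (by omega)
    have hne : X ≠ ⊥ := fun e => by rw [e, Subgroup.card_bot] at hX; omega
    obtain ⟨x, hxX, hx1⟩ := X.bot_or_exists_ne_one.resolve_left hne
    have hxz : X = Subgroup.zpowers x := by
      refine (Subgroup.eq_of_le_of_card_ge (by rw [Subgroup.zpowers_le]; exact hxX) ?_).symm
      rw [hX, Nat.card_zpowers]
      have hd := Subgroup.orderOf_dvd_natCard X hxX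
      rw [hX] at hd
      rcases (Nat.dvd_prime Nat.prime_three).mp hd with h | h
      · exact absurd (orderOf_eq_one_iff.mp h) hx1
      · rw [h]
    have hx3 : x ^ 3 = 1 := by
      have := Subgroup.orderOf_dvd_natCard X hxX
      rw [hX] at this
      exact orderOf_dvd_iff_pow_eq_one.mp this
    obtain ⟨i, g, hg, hgx⟩ := reps_surjective (x := (x : G7))
      (by rw [← SubmonoidClass.coe_pow, hx3]; rfl) (fun e => hx1 (Subtype.ext e))
    refine ⟨i, ⟨g, hg⟩, ?_⟩
    rw [hxz, MonoidHom.map_zpowers]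
    congr 1
    exact Subtype.ext hgx

theorem sevenClasses_POmega : SevenClasses (Cfsg.POmega F3 (⇑Q7)) :=
  sevenClasses_of_equiv (MulEquiv.ofBijective (QuotientGroup.mk' (Subgroup.center ↥Om))
    ⟨(QuotientGroup.mk' (Subgroup.center ↥Om)).ker_eq_bot_iff.mp
      (by rw [QuotientGroup.ker_mk', center_eq_bot]), QuotientGroup.mk'_surjective _⟩)
    sevenClasses_Om

end CfsgLib.O73
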