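import Cfsg.Agent.Lib.Classes.OmegaSevenThree.Standard
import Cfsg.Agent.Lib.Classes.OmegaOdd

/-!
Products of reflections commuting with, or inverting, the standard elements.
-/

set_option autoImplicit false
set_option linter.unusedSimpArgs false
set_option linter.unusedVariables false

namespace CfsgLib.O73

open CfsgLib.OrthGen

/-- The polar form in coordinates. -/
def bfc (u v : V7) : F3 := 2 * u (.inl ()) * v (.inl ())
    + (u (.inr (.inl 0)) * v (.inr (.inr 0)) + u (.inr (.inr 0)) * v (.inr (.inl 0)))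
    + (u (.inr (.inl 1)) * v (.inr (.inr 1)) + u (.inr (.inr 1)) * v (.inr (.inl 1)))
    + (u (.inr (.inl 2)) * v (.inr (.inr 2)) + u (.inr (.inr 2)) * v (.inr (.inl 2)))

lemma bfc_eq (u v : V7) : bfc u v = Bf u v := (Bf_eq u v).symm

/-- The operator of a block of size three in coordinates. -/
def c3 (a : F3) (v w z u : V7) : V7 := (a * bfc u z) • w + (-a * (bfc u w + bfc u z)) • z

lemma c3_eq (a : F3) (v w z u : V7) : c3 a v w z u = n3 a v w z u := by
  simp only [c3, n3_apply, bfc_eq]

/-- The operator of a pair of blocks of size two in coordinates. -/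
def c4 (f h g k u : V7) : V7 := (-bfc u k) • h + (bfc u h) • k

lemma c4_eq (f h g k u : V7) : c4 f h g k u = n4 f h g k u := by
  simp only [c4, n4_apply, bfc_eq]

/-- A reflection in coordinates. -/
def reflC (v u : V7) : V7 := u - ((-bfc v v) * bfc v u) • v

/-- A product of reflections in coordinates. -/
def prodC : List V7 → V7 → V7
  | [], u => u
  | v :: vs, u => reflC v (prodC vs u)

/-- A product of reflections. -/
noncomputable def prodR (vs : List V7) (h : ∀ v ∈ vs, Q7 v ≠ 0) : G7 :=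
  (vs.pmap (fun _ hv => refl Q7 hv) h).prod

lemma lin_prodR (vs : List V7) (h : ∀ v ∈ vs, Q7 v ≠ 0) (u : V7) :
    lin (prodR vs h) u = prodC vs u := by
  induction vs with
  | nil => simp [prodR, prodC, lin_one]
  | cons v vs ih =>
    have hv : Q7 v ≠ 0 := h v List.mem_cons_self
    have hinv : (Q7 v)⁻¹ = Q7 v := inv_eq_of_mul_eq_one_left (unit_sq hv)
    rw [prodR, List.pmap_cons, List.prod_cons, lin_mul, prodC, ← ih fun w hw => h w
      (List.mem_cons_of_mem _ hw), reflC, bfc_eq, bfc_eq, ← Q7_eq]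
    simp only [lin_apply, act_refl, hinv]
    rw [Bf_polar]
    rfl

/-- An isometry in coordinates. -/
def linC (f : V7 → V7) (u : V7) : V7 := u + f u

lemma lin_eq_of_basis {x y : G7} (h : ∀ i : I7, lin x (Pi.single i 1) = lin y (Pi.single i 1)) :
    x = y := by
  have : lin x = lin y := (Pi.basisFun F3 I7).ext fun i => by simpa using h i
  exact lin_ext fun u => by rw [this]

/-- The coordinates of the standard elements. -/
def stdC : Fin 6 → V7 → V7 :=
  ![c4 sf sh sg sk, c3 1 sv sw sz, c3 (-1) sv mw mz, fun u => c3 1 sv sw sz u + c4 sf sh sg sk u,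
    fun u => c3 1 sv sw sz u + c3 1 sf tw tz u, fun u => c3 1 sv sw sz u + c3 (-1) sf uw uz u]

lemma lin_zStd (i : Fin 6) (u : V7) : lin (zStd i) u = linC (stdC i) u := by
  fin_cases i <;>
    simp [zStd, zA, zP, zM, zC, zDP, zDM, stdC, linC, lin_eltOf, c3_eq, c4_eq]

/-- Reflection vectors of a product commuting with a standard element, of determinant one and spinor sign minus one. -/
def flipVecs : Fin 6 → List V7 :=
  ![[vec 1 0 0 0 0 0 0, vec 0 1 0 0 (-1) 0 0],
    [vec 0 0 1 0 0 1 0, vec 0 0 1 0 0 (-1) 0],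
    [vec 1 0 0 0 0 0 0, vec 0 0 0 1 0 0 (-1)],
    [vec 1 0 0 0 0 0 0, vec 0 1 0 0 (-1) 0 0],
    [sv + sf + (sz + tz), sv + sf - (sz + tz), sw + tw + (sz + tz), vec 0 0 0 1 0 0 (-1)],
    [vec 1 0 0 0 0 0 0, vec 0 1 0 0 1 0 0, vec 0 1 0 0 (-1) 0 0, vec 0 0 0 1 0 0 1]]

lemma Q7_ne_zero_of {v : V7} (h : bfc v v ≠ 0) : Q7 v ≠ 0 := by
  rw [Q7_eq, ← bfc_eq]
  exact neg_ne_zero.mpr h

lemma flipVecs_ne : ∀ i, ∀ v ∈ flipVecs i, Q7 v ≠ 0 := by
  intro i v hv
  apply Q7_ne_zero_of
  revert v
  revert i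
  decide +kernel

/-- A product of reflections of determinant one and spinor sign minus one. -/
noncomputable def flipElt (i : Fin 6) : G7 := prodR (flipVecs i) (flipVecs_ne i)

lemma det_prodR (vs : List V7) (h : ∀ v ∈ vs, Q7 v ≠ 0) :
    CfsgLib.Classes.detHom Q7 (prodR vs h) = (-1) ^ vs.length :=
  CfsgLib.Classes.detHom_prod_refl vs h

/-- The predicted spinor sign of a product of reflections. -/
def signC : List V7 → ℤˣ
  | [] => 1
  | v :: vs => (if bfc v v = -1 then -1 else 1) * signC vs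

lemma isSquare_F3 : ∀ a : F3, a ≠ 0 → (IsSquare a ↔ a = 1) := by
  intro a ha
  constructor
  · rintro ⟨r, rfl⟩
    revert ha
    revert r
    decide
  · rintro rfl
    exact IsSquare.one

lemma spin_prodR (vs : List V7) (h : ∀ v ∈ vs, Q7 v ≠ 0) :
    spinSign Q7 1 (prodR vs h) = signC vs := by
  induction vs with
  | nil => simp [prodR, signC]
  | cons v vs ih =>
    have hv : Q7 v ≠ 0 := h v List.mem_cons_self
    rw [prodR, List.pmap_cons, List.prod_cons, map_mul, signC]
    congr 1
    · have hne : (1 : F3) / Q7 v ≠ 0 := div_ne_zero one_ne_zero hv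
      split_ifs with hb
      · rw [spinSign_refl two_ne_zero7 one_ne_zero hv, Q7_eq, ← bfc_eq, hb]
        norm_num
      · rw [spinSign_refl' two_ne_zero7 one_ne_zero hv, isSquare_F3 _ hne, Q7_eq, ← bfc_eq]
        have hb0 : bfc v v ≠ 0 := fun e => hv (by rw [Q7_eq, ← bfc_eq, e, neg_zero])
        rcases unit_cases hb0 with e | e
        · rw [e, div_neg, div_one]; decide
        · exact absurd e hb
    · exact ih fun w hw => h w (List.mem_cons_of_mem _ hw)

lemma det_flipElt (i : Fin 6) : CfsgLib.Classes.detHom Q7 (flipElt i) = 1 := by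
  rw [flipElt, det_prodR]
  fin_cases i <;> rfl

lemma spin_flipElt (i : Fin 6) : spinSign Q7 1 (flipElt i) = -1 := by
  rw [flipElt, spin_prodR]
  revert i
  decide +kernel

lemma flip_commutes_aux : ∀ i : Fin 6, i ≠ 3 → ∀ j : I7,
    prodC (flipVecs i) (linC (stdC i) (Pi.single j 1)) =
      linC (stdC i) (prodC (flipVecs i) (Pi.single j 1)) := by
  decide +kernel

lemma flip_commutes {i : Fin 6} (hi : i ≠ 3) : flipElt i * zStd i = zStd i * flipElt i :=
  lin_eq_of_basis fun j => by
    rw [lin_mul, lin_mul, lin_zStd, lin_zStd, flipElt, lin_prodR, lin_prodR]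
    exact flip_commutes_aux i hi j

/-- Reflection vectors of an element inverting the standard element of shape `3 2²`. -/
def tauVecs : List V7 :=
  [vec 0 1 0 0 1 0 0, vec 0 1 0 0 (-1) 0 0, vec 0 0 1 0 0 1 0, vec 0 0 1 0 0 (-1) 0]

lemma tauVecs_ne : ∀ v ∈ tauVecs, Q7 v ≠ 0 := by
  intro v hv
  apply Q7_ne_zero_of
  revert v
  decide +kernel

/-- An element of `Ω` inverting the standard element of shape `3 2²`. -/
noncomputable def tau : G7 := prodR tauVecs tauVecs_ne

lemma det_tau : CfsgLib.Classes.detHom Q7 tau = 1 := by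
  rw [tau, det_prodR]; rfl

lemma spin_tau : spinSign Q7 1 tau = 1 := by
  rw [tau, spin_prodR]; decide +kernel

lemma tau_inverts_aux : ∀ j : I7, prodC tauVecs (linC (stdC 3) (Pi.single j 1)) =
    linC (stdC 3) (linC (stdC 3) (prodC tauVecs (Pi.single j 1))) := by
  decide +kernel

lemma tau_inverts : tau * zStd 3 = zStd 3 * zStd 3 * tau :=
  lin_eq_of_basis fun j => by
    rw [lin_mul, lin_mul, lin_mul, lin_zStd, lin_zStd, lin_zStd, tau, lin_prodR, lin_prodR]
    exact tau_inverts_aux j

end CfsgLib.O73
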