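import Cfsg.Agent.Lib.Classes.OmegaSevenThree.Classify

/-!
Standard elements of order three of `O₇(3)` and conjugation to them.
-/

set_option autoImplicit false
set_option linter.unusedSimpArgs false
set_option linter.unusedVariables false

namespace CfsgLib.O73

open CfsgLib.OrthGen

/-- A vector from its coordinates. -/
def vec (c : F3) (a₁ a₂ a₃ b₁ b₂ b₃ : F3) : V7 :=
  Sum.elim (fun _ => c) (Sum.elim ![a₁, a₂, a₃] ![b₁, b₂, b₃])

lemma Bf_eq (u v : V7) : Bf u v = 2 * u (.inl ()) * v (.inl ())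
    + (u (.inr (.inl 0)) * v (.inr (.inr 0)) + u (.inr (.inr 0)) * v (.inr (.inl 0)))
    + (u (.inr (.inl 1)) * v (.inr (.inr 1)) + u (.inr (.inr 1)) * v (.inr (.inl 1)))
    + (u (.inr (.inl 2)) * v (.inr (.inr 2)) + u (.inr (.inr 2)) * v (.inr (.inl 2))) := by
  simp only [Bf_polar, QuadraticMap.polar, Q7, CfsgLib.ClassicalForms.qOdd_apply, Cfsg.quadFormOdd,
    Fin.sum_univ_three, Pi.add_apply]
  ring

lemma Bf_vec (c a₁ a₂ a₃ b₁ b₂ b₃ c' a₁' a₂' a₃' b₁' b₂' b₃' : F3) :
    Bf (vec c a₁ a₂ a₃ b₁ b₂ b₃) (vec c' a₁' a₂' a₃' b₁' b₂' b₃') =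
      2 * c * c' + (a₁ * b₁' + b₁ * a₁') + (a₂ * b₂' + b₂ * a₂') + (a₃ * b₃' + b₃ * a₃') := by
  rw [Bf_eq]
  rfl

/-- First vector of the first standard block. -/
def sv : V7 := vec 0 1 0 0 0 0 0
/-- Second vector of the first standard block of value one. -/
def sw : V7 := vec 1 0 0 0 (-1) 0 0
/-- Third vector of the first standard block of value one. -/
def sz : V7 := vec 0 0 0 0 1 0 0
/-- Second vector of the first standard block of value minus one. -/
def mw : V7 := vec 0 0 1 0 1 (-1) 0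
/-- Third vector of the first standard block of value minus one. -/
def mz : V7 := vec 0 0 0 0 (-1) 0 0
/-- Vectors of the standard pair of blocks of size two. -/
def sf : V7 := vec 0 0 1 0 0 0 0
/-- Image of `sf`. -/
def sh : V7 := vec 0 0 0 0 0 0 1
/-- Second vector of the standard pair. -/
def sg : V7 := vec 0 0 0 1 0 0 0
/-- Image of `sg`. -/
def sk : V7 := vec 0 0 0 0 0 (-1) 0
/-- Second vector of the second standard block of value one. -/
def tw : V7 := vec 0 0 0 1 0 (-1) 1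
/-- Third vector of the second standard block of value one. -/
def tz : V7 := vec 0 0 0 0 0 1 0
/-- Second vector of the second standard block of value minus one. -/
def uw : V7 := vec 0 0 0 1 0 1 (-1)
/-- Third vector of the second standard block of value minus one. -/
def uz : V7 := vec 0 0 0 0 0 (-1) 0

lemma b_pos : B3 1 sv sw sz := by
  constructor <;> first | decide | (simp only [sv, sw, sz, Bf_vec]; decide)

lemma b_neg : B3 (-1) sv mw mz := by
  constructor <;> first | decide | (simp only [sv, mw, mz, Bf_vec]; decide)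

lemma b_pos' : B3 1 sf tw tz := by
  constructor <;> first | decide | (simp only [sf, tw, tz, Bf_vec]; decide)

lemma b_neg' : B3 (-1) sf uw uz := by
  constructor <;> first | decide | (simp only [sf, uw, uz, Bf_vec]; decide)

lemma b_four : B4 sf sh sg sk := by
  constructor <;> (simp only [sf, sh, sg, sk, Bf_vec]; decide)

lemma orth_four : ∀ i j, Bf (![sv, sw, sz] i) (![sf, sh, sg, sk] j) = 0 := by
  intro i j
  fin_cases i <;> fin_cases j <;>
    (dsimp; simp only [sv, sw, sz, sf, sh, sg, sk, Bf_vec]; decide)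

lemma orth_pos : ∀ i j, Bf (![sv, sw, sz] i) (![sf, tw, tz] j) = 0 := by
  intro i j
  fin_cases i <;> fin_cases j <;>
    (dsimp; simp only [sv, sw, sz, sf, tw, tz, Bf_vec]; decide)

lemma orth_neg : ∀ i j, Bf (![sv, sw, sz] i) (![sf, uw, uz] j) = 0 := by
  intro i j
  fin_cases i <;> fin_cases j <;>
    (dsimp; simp only [sv, sw, sz, sf, uw, uz, Bf_vec]; decide)

/-- Hypotheses making `1 + n` an isometry of order dividing three. -/
structure Unip (n : V7 →ₗ[F3] V7) : Prop where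
  cube : ∀ u, n (n (n u)) = 0
  rel : ∀ u u', Bf (n u) u' + Bf u (n u') + Bf (n u) (n u') = 0

lemma unip_n3 {a : F3} {v w z : V7} (b : B3 a v w z) : Unip (n3 a v w z) :=
  ⟨n3_cube b, n3_rel b⟩

lemma unip_n4 {f h g k : V7} (b : B4 f h g k) : Unip (n4 f h g k) :=
  ⟨fun u => by rw [n4_cube b], n4_rel b⟩

lemma unip_add {n n' : V7 →ₗ[F3] V7} (hn : Unip n) (hn' : Unip n') (h1 : ∀ u, n (n' u) = 0)
    (h2 : ∀ u, n' (n u) = 0) (ho : ∀ u u', Bf (n u) (n' u') = 0) : Unip (n + n') := by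
  refine ⟨fun u => ?_, fun u u' => ?_⟩
  · simp only [LinearMap.add_apply, map_add, h1, h2, add_zero, zero_add, hn.cube, hn'.cube]
  · simp only [LinearMap.add_apply, map_add, ho, Bf_comm (n' u) (n u'), add_zero, zero_add]
    linear_combination hn.rel u u' + hn'.rel u u'

lemma one_add_cube {n : V7 →ₗ[F3] V7} (hn : Unip n) :
    (LinearMap.id + n) ∘ₗ ((LinearMap.id + n) ∘ₗ (LinearMap.id + n)) = LinearMap.id := by
  have h : ∀ a : V7, a + a + a = 0 := fun a => funext fun i => by
    simp only [Pi.add_apply, Pi.zero_apply]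
    linear_combination (a i) * three_eq_zero
  refine LinearMap.ext fun u => ?_
  simp only [LinearMap.comp_apply, LinearMap.add_apply, LinearMap.id_apply, map_add, hn.cube,
    add_zero]
  calc u + n u + (n u + n (n u)) + (n u + n (n u) + n (n u))
      = u + ((n u + n u + n u) + (n (n u) + n (n u) + n (n u))) := by abel
    _ = u := by rw [h, h, add_zero, add_zero]

/-- The isometry `1 + n`. -/
noncomputable def eltOf (n : V7 →ₗ[F3] V7) (hn : Unip n) : G7 :=
  mkIso Q7 (LinearMap.toMatrix' (LinearMap.id + n))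
    (LinearMap.toMatrix' ((LinearMap.id + n) ∘ₗ (LinearMap.id + n)))
    (by rw [← LinearMap.toMatrix'_comp, one_add_cube hn, LinearMap.toMatrix'_id])
    (by rw [← LinearMap.toMatrix'_comp, LinearMap.comp_assoc, one_add_cube hn,
      LinearMap.toMatrix'_id])
    (fun u => by
      rw [LinearMap.toMatrix'_mulVec, Q7_eq, Q7_eq]
      simp only [LinearMap.add_apply, LinearMap.id_apply, map_add]
      linear_combination -hn.rel u u)

lemma lin_eltOf (n : V7 →ₗ[F3] V7) (hn : Unip n) (u : V7) : lin (eltOf n hn) u = u + n u := by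
  rw [lin_apply, act, eltOf, coe_mkIso, LinearMap.toMatrix'_mulVec]
  rfl

lemma nop_eltOf (n : V7 →ₗ[F3] V7) (hn : Unip n) : nop (eltOf n hn) = n :=
  LinearMap.ext fun u => by
    have := lin_eq (eltOf n hn) u
    rw [lin_eltOf] at this
    exact (add_left_cancel this).symm

lemma eltOf_pow_three (n : V7 →ₗ[F3] V7) (hn : Unip n) : eltOf n hn ^ 3 = 1 :=
  lin_ext fun u => by
    have h := LinearMap.congr_fun (one_add_cube hn) u
    simp only [LinearMap.comp_apply, LinearMap.add_apply, LinearMap.id_apply] at h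
    rw [pow_three, lin_mul, lin_mul, lin_one, lin_eltOf, lin_eltOf, lin_eltOf]
    exact h

/-- The standard element of shape `2² 1³`. -/
noncomputable def zA : G7 := eltOf (n4 sf sh sg sk) (unip_n4 b_four)

/-- The standard element of shape `3 1⁴`, value one. -/
noncomputable def zP : G7 := eltOf (n3 1 sv sw sz) (unip_n3 b_pos)

/-- The standard element of shape `3 1⁴`, value minus one. -/
noncomputable def zM : G7 := eltOf (n3 (-1) sv mw mz) (unip_n3 b_neg)

lemma unip_orth34 {a : F3} {v w z f h g k : V7} (b : B3 a v w z) (b' : B4 f h g k)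
    (ho : ∀ i j, Bf (![v, w, z] i) (![f, h, g, k] j) = 0) : Unip (n3 a v w z + n4 f h g k) := by
  have o11 : Bf w h = 0 := ho 1 1
  have o13 : Bf w k = 0 := ho 1 3
  have o21 : Bf z h = 0 := ho 2 1
  have o23 : Bf z k = 0 := ho 2 3
  refine unip_add (unip_n3 b) (unip_n4 b') (fun u => ?_) (fun u => ?_) (fun u u' => ?_)
  · simp only [n4_apply, map_add, map_smul, n3_apply, Bf_comm h z, Bf_comm h w, Bf_comm k z,
      Bf_comm k w, o11, o13, o21, o23]
    simp
  · simp only [n3_apply, map_add, map_smul, n4_apply, o11, o13, o21, o23]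
    simp
  · simp only [n3_apply, n4_apply, map_add, map_smul, LinearMap.add_apply, LinearMap.smul_apply,
      o11, o13, o21, o23]
    simp

lemma unip_orth33 {a a' : F3} {v w z v' w' z' : V7} (b : B3 a v w z) (b' : B3 a' v' w' z')
    (ho : ∀ i j, Bf (![v, w, z] i) (![v', w', z'] j) = 0) :
    Unip (n3 a v w z + n3 a' v' w' z') := by
  have o11 : Bf w w' = 0 := ho 1 1
  have o12 : Bf w z' = 0 := ho 1 2
  have o21 : Bf z w' = 0 := ho 2 1
  have o22 : Bf z z' = 0 := ho 2 2
  refine unip_add (unip_n3 b) (unip_n3 b') (fun u => ?_) (fun u => ?_) (fun u u' => ?_)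
  · simp only [n3_apply a' v', map_add, map_smul, n3_apply a v, LinearMap.add_apply,
      LinearMap.smul_apply, smul_eq_mul]
    simp [Bf_comm w' z, Bf_comm w' w, Bf_comm z' z, Bf_comm z' w, o11, o12, o21, o22]
  · simp only [n3_apply a v, map_add, map_smul, n3_apply a' v', LinearMap.add_apply,
      LinearMap.smul_apply, smul_eq_mul]
    simp [o11, o12, o21, o22]
  · simp only [n3_apply, map_add, map_smul, LinearMap.add_apply, LinearMap.smul_apply,
      o11, o12, o21, o22]
    simp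

/-- The standard element of shape `3 2²`. -/
noncomputable def zC : G7 :=
  eltOf (n3 1 sv sw sz + n4 sf sh sg sk) (unip_orth34 b_pos b_four orth_four)

/-- The standard element of shape `3² 1`, values `1, 1`. -/
noncomputable def zDP : G7 :=
  eltOf (n3 1 sv sw sz + n3 1 sf tw tz) (unip_orth33 b_pos b_pos' orth_pos)

/-- The standard element of shape `3² 1`, values `1, -1`. -/
noncomputable def zDM : G7 :=
  eltOf (n3 1 sv sw sz + n3 (-1) sf uw uz) (unip_orth33 b_pos b_neg' orth_neg)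

/-! ### Conjugation -/

lemma conj_of_equivariant {x z : G7} (g : G7)
    (h : ∀ u, lin g (nop x u) = nop z (lin g u)) : g * x * g⁻¹ = z := by
  refine lin_ext fun u => ?_
  rw [lin_mul, lin_mul, lin_eq x, map_add, h, ← lin_mul g g⁻¹, mul_inv_cancel, lin_one, ← lin_eq]

lemma lin_n3 (g : G7) (a : F3) (v w z u : V7) :
    lin g (n3 a v w z u) = n3 a (lin g v) (lin g w) (lin g z) (lin g u) := by
  simp only [n3_apply, map_add, map_smul, Bf_lin]

lemma lin_n4 (g : G7) (f h k j u : V7) :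
    lin g (n4 f h k j u) = n4 (lin g f) (lin g h) (lin g k) (lin g j) (lin g u) := by
  simp only [n4_apply, map_add, map_smul, Bf_lin]

lemma gram3_eq {a : F3} {v w z v' w' z' : V7} (b : B3 a v w z) (b' : B3 a v' w' z') :
    ∀ i j, Bf (![v', w', z'] i) (![v', w', z'] j) = Bf (![v, w, z] i) (![v, w, z] j) := by
  intro i j
  fin_cases i <;> fin_cases j <;> dsimp <;>
    simp only [b.vv, b.vw, b.ww, b.vz, b.wz, b.zz, b'.vv, b'.vw, b'.ww, b'.vz, b'.wz, b'.zz,
      Bf_comm w v, Bf_comm z v, Bf_comm z w, Bf_comm w' v', Bf_comm z' v', Bf_comm z' w']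

lemma gram4_eq {f h g k f' h' g' k' : V7} (b : B4 f h g k) (b' : B4 f' h' g' k') :
    ∀ i j, Bf (![f', h', g', k'] i) (![f', h', g', k'] j) =
      Bf (![f, h, g, k] i) (![f, h, g, k] j) := by
  intro i j
  fin_cases i <;> fin_cases j <;> dsimp <;>
    simp only [b.ff, b.fh, b.fg, b.fk, b.hh, b.hg, b.hk, b.gg, b.gk, b.kk,
      b'.ff, b'.fh, b'.fg, b'.fk, b'.hh, b'.hg, b'.hk, b'.gg, b'.gk, b'.kk,
      Bf_comm h f, Bf_comm g f, Bf_comm k f, Bf_comm g h, Bf_comm k h, Bf_comm k g,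
      Bf_comm h' f', Bf_comm g' f', Bf_comm k' f', Bf_comm g' h', Bf_comm k' h', Bf_comm k' g']

lemma gram_sum_eq {κ κ' : Type*} [Fintype κ] [Fintype κ'] {p q : κ → V7} {p' q' : κ' → V7}
    (h : ∀ i j, Bf (q i) (q j) = Bf (p i) (p j))
    (h' : ∀ i j, Bf (q' i) (q' j) = Bf (p' i) (p' j))
    (ho : ∀ i j, Bf (p i) (p' j) = 0) (hoq : ∀ i j, Bf (q i) (q' j) = 0) :
    ∀ i j, Bf (Sum.elim q q' i) (Sum.elim q q' j) = Bf (Sum.elim p p' i) (Sum.elim p p' j) := by
  rintro (i | i) (j | j)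
  · exact h i j
  · simp only [Sum.elim_inl, Sum.elim_inr, ho, hoq]
  · simp only [Sum.elim_inl, Sum.elim_inr, Bf_comm (q' i), Bf_comm (p' i), ho, hoq]
  · exact h' i j

lemma conj_n3 {x z : G7} {a : F3} {v w y v' w' y' : V7} (b : B3 a v w y) (hx : nop x = n3 a v w y)
    (b' : B3 a v' w' y') (hz : nop z = n3 a v' w' y') : ∃ g, g * x * g⁻¹ = z := by
  obtain ⟨g, hg⟩ := exists_isometry_of_gram (linearIndependent_of_gram _ (gram3 b))
    (linearIndependent_of_gram _ (gram3 b')) (gram3_eq b b')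
  refine ⟨g, conj_of_equivariant g fun u => ?_⟩
  have e0 : lin g v = v' := hg 0
  have e1 : lin g w = w' := hg 1
  have e2 : lin g y = y' := hg 2
  rw [hx, hz, lin_n3, e0, e1, e2]

lemma conj_n4 {x z : G7} {f h p k f' h' p' k' : V7} (b : B4 f h p k) (hx : nop x = n4 f h p k)
    (b' : B4 f' h' p' k') (hz : nop z = n4 f' h' p' k') : ∃ g, g * x * g⁻¹ = z := by
  obtain ⟨g, hg⟩ := exists_isometry_of_gram (linearIndependent_of_gram _ (gram4 b))
    (linearIndependent_of_gram _ (gram4 b')) (gram4_eq b b')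
  refine ⟨g, conj_of_equivariant g fun u => ?_⟩
  have e0 : lin g f = f' := hg 0
  have e1 : lin g h = h' := hg 1
  have e2 : lin g p = p' := hg 2
  have e3 : lin g k = k' := hg 3
  rw [hx, hz, lin_n4, e0, e1, e2, e3]

lemma conj_n34 {x z : G7} {a : F3} {v w y v' w' y' f h p k f' h' p' k' : V7}
    (b : B3 a v w y) (c : B4 f h p k) (ho : ∀ i j, Bf (![v, w, y] i) (![f, h, p, k] j) = 0)
    (hx : nop x = n3 a v w y + n4 f h p k)
    (b' : B3 a v' w' y') (c' : B4 f' h' p' k')
    (ho' : ∀ i j, Bf (![v', w', y'] i) (![f', h', p', k'] j) = 0)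
    (hz : nop z = n3 a v' w' y' + n4 f' h' p' k') : ∃ g, g * x * g⁻¹ = z := by
  obtain ⟨g, hg⟩ := exists_isometry_of_gram
    (linearIndependent_of_gram _ (gram_orth (gram3 b) (gram4 c) ho))
    (linearIndependent_of_gram _ (gram_orth (gram3 b') (gram4 c') ho'))
    (gram_sum_eq (gram3_eq b b') (gram4_eq c c') ho ho')
  refine ⟨g, conj_of_equivariant g fun u => ?_⟩
  have e0 : lin g v = v' := hg (.inl 0)
  have e1 : lin g w = w' := hg (.inl 1)
  have e2 : lin g y = y' := hg (.inl 2)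
  have d0 : lin g f = f' := hg (.inr 0)
  have d1 : lin g h = h' := hg (.inr 1)
  have d2 : lin g p = p' := hg (.inr 2)
  have d3 : lin g k = k' := hg (.inr 3)
  rw [hx, hz, LinearMap.add_apply, LinearMap.add_apply, map_add, lin_n3, lin_n4, e0, e1, e2, d0,
    d1, d2, d3]

lemma conj_n33 {x z : G7} {a c : F3} {v w y v' w' y' f h p f' h' p' : V7}
    (b : B3 a v w y) (d : B3 c f h p) (ho : ∀ i j, Bf (![v, w, y] i) (![f, h, p] j) = 0)
    (hx : nop x = n3 a v w y + n3 c f h p)
    (b' : B3 a v' w' y') (d' : B3 c f' h' p')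
    (ho' : ∀ i j, Bf (![v', w', y'] i) (![f', h', p'] j) = 0)
    (hz : nop z = n3 a v' w' y' + n3 c f' h' p') : ∃ g, g * x * g⁻¹ = z := by
  obtain ⟨g, hg⟩ := exists_isometry_of_gram
    (linearIndependent_of_gram _ (gram_orth (gram3 b) (gram3 d) ho))
    (linearIndependent_of_gram _ (gram_orth (gram3 b') (gram3 d') ho'))
    (gram_sum_eq (gram3_eq b b') (gram3_eq d d') ho ho')
  refine ⟨g, conj_of_equivariant g fun u => ?_⟩
  have e0 : lin g v = v' := hg (.inl 0)
  have e1 : lin g w = w' := hg (.inl 1)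
  have e2 : lin g y = y' := hg (.inl 2)
  have d0 : lin g f = f' := hg (.inr 0)
  have d1 : lin g h = h' := hg (.inr 1)
  have d2 : lin g p = p' := hg (.inr 2)
  rw [hx, hz, LinearMap.add_apply, LinearMap.add_apply, map_add, lin_n3, lin_n3, e0, e1, e2, d0,
    d1, d2]

/-- Coordinates inside the orthogonal complement of the standard pair. -/
lemma eq_vec_of_perp {u : V7} (h : ∀ j, Bf u (![sf, sh, sg, sk] j) = 0) :
    u = vec (u (.inl ())) (u (.inr (.inl 0))) 0 0 (u (.inr (.inr 0))) 0 0 := by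
  have h0 := h 0
  have h1 := h 1
  have h2 := h 2
  have h3 := h 3
  rw [Bf_eq] at h0 h1 h2 h3
  simp [sf, sh, sg, sk, vec] at h0 h1 h2 h3
  ext (i | i | i) <;> fin_cases i <;> simp [vec, h0, h1, h2, h3]

lemma no_neg_block : ∀ c a b : F3, 2 * c * c + (a * b + b * a) = 0 →
    ∀ c' a' b' : F3, 2 * c' * c' + (a' * b' + b' * a') = 1 →
      2 * c * c' + (a * b' + b * a') = 1 →
    ∀ c'' a'' b'' : F3, 2 * c * c'' + (a * b'' + b * a'') = -1 →
      2 * c' * c'' + (a' * b'' + b' * a'') = 0 →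
      2 * c'' * c'' + (a'' * b'' + b'' * a'') = 0 → False := by
  decide

lemma not_shapeC_neg (x : G7) : ¬ ShapeC (-1) x := by
  rintro ⟨v, w, z, f, h, p, k, b, c, ho, -⟩
  obtain ⟨g, hg⟩ := exists_isometry_of_gram (linearIndependent_of_gram _ (gram4 c))
    (linearIndependent_of_gram _ (gram4 b_four)) (gram4_eq c b_four)
  have hp : ∀ i j, Bf (lin g (![v, w, z] i)) (![sf, sh, sg, sk] j) = 0 := fun i j => by
    rw [← hg j, Bf_lin, ho]
  have ev : lin g v = _ := eq_vec_of_perp (hp 0)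
  have ew : lin g w = _ := eq_vec_of_perp (hp 1)
  have ez : lin g z = _ := eq_vec_of_perp (hp 2)
  have k1 := b.vv
  have k2 := b.ww
  have k3 := b.vw
  have k4 := b.vz
  have k5 := b.wz
  have k6 := b.zz
  rw [← Bf_lin g, ev, Bf_vec] at k1
  rw [← Bf_lin g, ew, Bf_vec] at k2
  rw [← Bf_lin g, ev, ew, Bf_vec] at k3
  rw [← Bf_lin g, ev, ez, Bf_vec] at k4
  rw [← Bf_lin g, ew, ez, Bf_vec] at k5
  rw [← Bf_lin g, ez, Bf_vec] at k6
  simp only [mul_zero, add_zero, neg_neg] at k1 k2 k3 k4 k5 k6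
  exact no_neg_block _ _ _ k1 _ _ _ k2 k3 _ _ _ k4 k5 k6

/-- The six standard elements. -/
noncomputable def zStd : Fin 6 → G7 := ![zA, zP, zM, zC, zDP, zDM]

theorem exists_conj_std {x : G7} (hx : x ^ 3 = 1) (hne : x ≠ 1) :
    ∃ (i : Fin 6) (g : G7), g * x * g⁻¹ = zStd i := by
  rcases classify hx hne with h | h | h | h | h
  · obtain ⟨f, a, p, k, b, hn⟩ := h
    exact ⟨0, conj_n4 (z := zA) b hn b_four (nop_eltOf _ _)⟩
  · obtain ⟨a, ha, v, w, z, b, hn⟩ := h
    rcases unit_cases ha with rfl | rfl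
    · exact ⟨1, conj_n3 (z := zP) b hn b_pos (nop_eltOf _ _)⟩
    · exact ⟨2, conj_n3 (z := zM) b hn b_neg (nop_eltOf _ _)⟩
  · obtain ⟨a, ha, h⟩ := h
    rcases unit_cases ha with rfl | rfl
    · obtain ⟨v, w, z, f, q, p, k, b, c, ho, hn⟩ := h
      exact ⟨3, conj_n34 (z := zC) b c ho hn b_pos b_four orth_four (nop_eltOf _ _)⟩
    · exact absurd h (not_shapeC_neg x)
  · obtain ⟨v, w, z, v', w', z', b, c, ho, hn⟩ := h
    exact ⟨4, conj_n33 (z := zDP) b c ho hn b_pos b_pos' orth_pos (nop_eltOf _ _)⟩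
  · obtain ⟨v, w, z, v', w', z', b, c, ho, hn⟩ := h
    exact ⟨5, conj_n33 (z := zDM) b c ho hn b_pos b_neg' orth_neg (nop_eltOf _ _)⟩

end CfsgLib.O73
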